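import Cfsg.Agent.Loc.GC1
import Cfsg.Agent.Loc.Fit
import Cfsg.Agent.Loc.Two
import Cfsg.Agent.BG2.P3a
import Cfsg.Agent.Char.Integral

/-! Groups of order `p * 3 ^ a * 2 ^ b` with self-centralizing elements of order `p`: local subgroups. -/

set_option autoImplicit false
set_option linter.unusedSectionVars false

namespace CF.W7

open Subgroup Cfsg CF.Loc
open scoped commutatorElement

variable {G : Type*} [Group G] [Finite G] {p : ℕ} {A K L N Q T U V W X : Subgroup G} {x y g : G}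

structure Hy (p : ℕ) (G : Type*) [Group G] : Prop where
  pr : p.Prime
  p7 : 7 ≤ p
  ex : ∃ a b, Nat.card G = p * 3 ^ a * 2 ^ b
  cx : ∀ x : G, orderOf x = p → centralizer {x} = zpowers x
  lc : GC.LC G

theorem sol_of_der (h : ⁅K, K⁆ ≤ A) (a : Group.IsSolvable A) : Group.IsSolvable K := by
  have s : Group.IsSolvable (commutator K) := by
    have : Group.IsSolvable ↥⁅K, K⁆ := BG.Sol.mono a h
    have e := map_subtype_commutator K
    exact (BG.sol_map_iff (subtype_injective K)).1 (e ▸ this)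
  have : Group.IsSolvable (Abelianization K) := inferInstance
  exact Group.isSolvable_of_ker_le_range (commutator K).subtype Abelianization.of (by
    rw [Abelianization.ker_of, range_subtype])

namespace Hy
variable (h : Hy p G)
include h

theorem cop {a b : ℕ} : p.Coprime (3 ^ a * 2 ^ b) := by
  have := h.p7
  exact (((Nat.coprime_primes h.pr Nat.prime_three).2 (by omega)).pow_right _).mul_right
    (((Nat.coprime_primes h.pr Nat.prime_two).2 (by omega)).pow_right _)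

theorem dvd {n : ℕ} (d : n ∣ Nat.card G) (k : ¬ p ∣ n) : ∃ a b, n = 3 ^ a * 2 ^ b := by
  obtain ⟨a, b, e⟩ := h.ex
  obtain ⟨u, v, hu, hv, rfl⟩ := Nat.dvd_mul.1 (((Nat.Prime.coprime_iff_not_dvd h.pr).2 k).symm.dvd_of_dvd_mul_left
    (mul_assoc p _ _ ▸ e ▸ d))
  obtain ⟨i, -, rfl⟩ := (Nat.dvd_prime_pow Nat.prime_three).1 hu
  obtain ⟨j, -, rfl⟩ := (Nat.dvd_prime_pow Nat.prime_two).1 hv
  exact ⟨i, j, rfl⟩

theorem nsq {m n : ℕ} (d : m * n ∣ Nat.card G) (a : p ∣ m) : ¬ p ∣ n := fun b => by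
  obtain ⟨i, j, e⟩ := h.ex
  rw [e, mul_assoc] at d
  exact (Nat.Prime.coprime_iff_not_dvd h.pr).1 h.cop ((Nat.mul_dvd_mul_iff_left h.pr.pos).1 ((mul_dvd_mul a b).trans d))

theorem dvd' {n : ℕ} (d : n ∣ Nat.card G) (k : p ∣ n) : ∃ a b, n = p * 3 ^ a * 2 ^ b := by
  obtain ⟨m, rfl⟩ := k
  obtain ⟨a, b, rfl⟩ := h.dvd ((dvd_mul_left m p).trans d) (h.nsq d dvd_rfl)
  exact ⟨a, b, (mul_assoc _ _ _).symm⟩

theorem sol (k : ¬ p ∣ Nat.card K) : Group.IsSolvable K := by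
  obtain ⟨a, b, e⟩ := h.dvd (card_subgroup_dvd_card K) k
  exact Char.isSolvable_of_card_dvd Nat.prime_three Nat.prime_two K e.dvd

theorem nd {q : ℕ} (hq : q = 2 ∨ q = 3) (k : IsPGroup q K) : ¬ p ∣ Nat.card K := fun d => by
  have := h.p7
  rcases hq with rfl | rfl
  · obtain ⟨n, e⟩ := k.exists_card_eq
    have := (Nat.prime_dvd_prime_iff_eq h.pr Nat.prime_two).1 (h.pr.dvd_of_dvd_pow (e ▸ d)); omega
  · obtain ⟨n, e⟩ := k.exists_card_eq
    have := (Nat.prime_dvd_prime_iff_eq h.pr Nat.prime_three).1 (h.pr.dvd_of_dvd_pow (e ▸ d)); omega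

theorem nd_sup (a : ¬ p ∣ Nat.card K) (b : ¬ p ∣ Nat.card L) (n : K ≤ 𝐍(L)) : ¬ p ∣ Nat.card ↥(K ⊔ L) := fun d =>
  (h.pr.dvd_mul.1 (card_sup_mul_card_inf n ▸ d.mul_right _)).elim a b

theorem nd_of_cent (g1 : g ≠ 1) (o : ¬ p ∣ orderOf g) (l : K ≤ centralizer {g}) : ¬ p ∣ Nat.card K := fun d => by
  have := Fact.mk h.pr
  obtain ⟨x, hx, ox⟩ := exists_orderOf_eq_of_dvd_card d
  have m : g ∈ zpowers x := h.cx x ox ▸ mem_centralizer_singleton_iff.2 (mem_centralizer_singleton_iff.1 (l hx)).symm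
  have := orderOf_dvd_of_mem_zpowers m
  rw [ox, Nat.dvd_prime h.pr, orderOf_eq_one_iff] at this
  exact this.elim g1 fun e => o e.symm.dvd

theorem cq (k : IsPGroup 2 U) (n : U ≠ ⊥) : 𝐂(𝐎[2](𝐍(U))) ≤ 𝐎[2](𝐍(U)) := fun _ m => h.lc U k n
  ⟨centralizer_le_normalizer_of_le (le_pCoreOf k le_normalizer le_rfl) m, m⟩

variable (ox : orderOf x = p)
include ox

theorem cz : Nat.card (zpowers x) = p := (Nat.card_zpowers x).trans ox

theorem pz : IsPGroup p (zpowers x) := isPGroup_zpowers_of_orderOf (k := 1) (by rw [ox, pow_one])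

theorem cP : 𝐂(zpowers x) = zpowers x := (centralizer_zpowers x).trans (h.cx x ox)

theorem inf (k : ¬ p ∣ Nat.card K) : K ⊓ 𝐂(zpowers x) = ⊥ := by
  rw [h.cP ox, inf_comm]
  exact inf_eq_bot_of_coprime_card (h.pz ox) ((Nat.Prime.coprime_iff_not_dvd h.pr).2 k).symm

theorem fix (k : ¬ p ∣ Nat.card K) (m : g ∈ K) (c : x * g = g * x) : g = 1 :=
  (h.inf ox k).le ⟨m, by rw [centralizer_zpowers]; exact mem_centralizer_singleton_iff.2 c.symm⟩

theorem reg (k : ¬ p ∣ Nat.card K) : BG.Reg K (zpowers x) :=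
  BG.reg_of_prime ((h.cz ox).symm ▸ h.pr) (h.inf ox k)

theorem mod (k : ¬ p ∣ Nat.card K) (n : x ∈ 𝐍(K)) : ∃ c, Nat.card K = c * p + 1 := by
  obtain ⟨c, e⟩ := (h.reg ox k).card_dvd (zpowers_le.2 n)
  have : 0 < Nat.card K := Nat.card_pos
  exact ⟨c, by rw [h.cz ox, mul_comm] at e; omega⟩

theorem x1 : zpowers x ≠ ⊥ := fun e => by
  have := h.cz ox
  have := h.p7
  rw [e, card_bot] at *
  omega

theorem comm (k : ¬ p ∣ Nat.card K) (n : x ∈ 𝐍(K)) : ⁅K, zpowers x⁆ = K :=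
  (h.reg ox k).comm_eq (zpowers_le.2 n) (h.x1 ox)

theorem syl (m : x ∈ K) : IsSyl p (zpowers x) K := by
  have := Fact.mk h.pr
  refine isSyl_of_not_dvd_relIndex (h.pz ox) (zpowers_le.2 m) (h.nsq (m := Nat.card (zpowers x)) ?_ (h.cz ox).symm.dvd)
  rw [card_mul_relIndex (zpowers_le.2 m)]
  exact card_subgroup_dvd_card K

theorem mem (m : x ∈ N) (l : K ≤ N) (n : N ≤ 𝐍(K)) (d : p ∣ Nat.card K) : x ∈ K := by
  have := Fact.mk h.pr
  obtain ⟨y, hy, oy⟩ := exists_orderOf_eq_of_dvd_card d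
  obtain ⟨g, hg, e⟩ := (h.syl oy (l hy)).conj (h.syl ox m)
  exact zpowers_le.1 (e ▸ cj_le_of_mem_normalizer (n hg) (zpowers_le.2 hy))

theorem le_O (ch : IsCharP 2 N) (m : x ∈ N) (l : K ≤ N) (n : N ≤ 𝐍(K)) (k : ¬ p ∣ Nat.card K) : K ≤ 𝐎[2](N) := by
  have nQ := le_normalizer_pCoreOf 2 N
  have k' := h.nd_sup k (h.nd (.inl rfl) (isPGroup_pCoreOf 2 N)) (l.trans nQ)
  have n' := le_normalizer_sup n nQ
  have l' := sup_le l (pCoreOf_le 2 N)
  have nl := BG.nil_of_prime_fpf ((h.cz ox).symm ▸ h.pr) ((zpowers_le.2 m).trans n') (h.sol k') (h.inf ox k')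
  refine le_sup_left.trans (le_pCoreOf (isPGroup_of_forall_coprime fun g hg c => ?_) l' n')
  refine eq_one_of_coprime_of_mem (isPGroup_pCoreOf 2 N) (ch ⟨l' hg, fun q hq => ?_⟩) c
  obtain ⟨j, e⟩ := orderOf_eq_pow_of_mem (isPGroup_pCoreOf 2 N) hq
  exact nl.comm_of_coprime (mem_sup_right hq) hg (e ▸ c.symm.pow_left j)

theorem idx (m : x ∈ L) (l : L ≤ N) (n : N ≤ 𝐍(L)) : ∃ c, Nat.card L = (c * p + 1) * (p * (zpowers x).relIndex (L ⊓ 𝐍(zpowers x))) ∧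
    L.relIndex N * (zpowers x).relIndex (L ⊓ 𝐍(zpowers x)) ∣ p - 1 := by
  have := Fact.mk h.pr
  have s := h.syl ox m
  have l1 : zpowers x ≤ L ⊓ 𝐍(zpowers x) := le_inf s.le le_normalizer
  have c := card_sylow_modEq_one p L
  rw [Sylow.card_eq_index_normalizer s.toSylow] at c
  have e : normalizer ((s.toSylow : Subgroup L) : Set L) = (L ⊓ 𝐍(zpowers x)).subgroupOf L := by
    rw [s.coe_toSylow, ← subgroupOf_normalizer_eq s.le, inf_subgroupOf_left]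
  refine ⟨(L ⊓ 𝐍(zpowers x)).relIndex L / p, ?_, ?_⟩
  · have c' : (L ⊓ 𝐍(zpowers x)).relIndex L % p = 1 := by
      rw [relIndex, ← e]; exact Eq.trans c (Nat.mod_eq_of_lt h.pr.one_lt)
    rw [← c', Nat.div_add_mod', ← card_mul_relIndex (inf_le_left : L ⊓ 𝐍(zpowers x) ≤ L), ← card_mul_relIndex l1,
      h.cz ox, mul_comm]
  · have := BG.relIndex_cent_dvd_pred (A := N ⊓ 𝐍(zpowers x)) ((h.cz ox).symm ▸ h.pr) inf_le_right
    rw [h.cz ox, h.cP ox, ← relIndex_mul_relIndex _ _ _ l1 (inf_le_inf_right _ l), mul_comm] at this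
    rw [← s.frattini_sup l n, relIndex_sup_of_le_normalizer (inf_le_left.trans n), ← inf_relIndex_right L, ← inf_assoc,
      inf_of_le_left l]
    exact this

theorem idx2 (m : x ∈ L) (l : L ≤ N) (n : N ≤ 𝐍(L)) (lQ : Q ≤ L) (nQ : x ∈ 𝐍(Q)) (k : ¬ p ∣ Nat.card Q) {r : ℕ}
    (e : Q.relIndex L = p * r) : (zpowers x).relIndex (L ⊓ 𝐍(zpowers x)) = r % p ∧ L.relIndex N * (r % p) ∣ p - 1 := by
  obtain ⟨c, e1, e2⟩ := h.idx ox m l n
  obtain ⟨d, e3⟩ := h.mod ox k nQ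
  have p7 := h.p7
  rw [← card_mul_relIndex lQ, e, e3, mul_left_comm, mul_left_comm _ p, Nat.mul_right_inj h.pr.ne_zero] at e1
  have e4 := Nat.le_of_dvd (by omega) ((dvd_mul_left _ _).trans e2)
  have e5 := congrArg (· % p) e1
  simp only [add_mul, one_mul, mul_right_comm _ p, Nat.mul_add_mod_self_right, add_comm, Nat.add_mul_mod_self_right] at e5
  rw [Nat.mod_eq_of_lt (show _ < p by omega : (zpowers x).relIndex _ < p)] at e5
  exact ⟨e5.symm, e5 ▸ e2⟩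

theorem sol_N : Group.IsSolvable 𝐍(zpowers x) :=
  sol_of_der ((BG.Cyc.der_le_cent inferInstance le_rfl).trans (h.cP ox).le) inferInstance

theorem dich (ch : IsCharP 2 N) (m : x ∈ N) : N ≤ 𝐍(𝐎[2](N) ⊔ zpowers x) ∨ ∃ L, 𝐎[2](N) ≤ L ∧ L ≤ N ∧ N ≤ 𝐍(L) ∧ x ∈ L ∧
    ¬ ⁅L, L⁆ ≤ 𝐎[2](N) ∧ ∀ K, 𝐎[2](N) ≤ K → K ≤ L → L ≤ 𝐍(K) → K = 𝐎[2](N) ∨ K = L := by
  have := Fact.mk h.pr
  have nQ := le_normalizer_pCoreOf 2 N
  have pQ := h.nd (.inl rfl) (isPGroup_pCoreOf 2 N)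
  have x0 : x ∉ 𝐎[2](N) := fun k => pQ (ox ▸ orderOf_dvd_natCard _ k)
  obtain ⟨L, ⟨a, b, c, d⟩, mn⟩ := exists_minimal_of_wellFoundedLT
    (fun L => 𝐎[2](N) ≤ L ∧ L ≤ N ∧ N ≤ 𝐍(L) ∧ x ∈ L) ⟨N, pCoreOf_le 2 N, le_rfl, le_normalizer, m⟩
  by_cases k : ⁅L, L⁆ ≤ 𝐎[2](N)
  · refine .inl (le_normalizer_iff_cj.2 fun g hg => ?_)
    obtain ⟨u, hu, v, hv, rfl⟩ := (h.syl ox d).frattini (c hg)
    rw [cj_mul, cj_sup, cj_eq_self hv, cj_eq_self (nQ ((mul_mem_cancel_left (b hu)).1 hg))]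
    exact (cj_eq_self (le_normalizer_of_commutator_le (sup_le a (zpowers_le.2 d)) (k.trans le_sup_left) hu)).le
  refine .inr ⟨L, a, b, c, d, k, fun K k1 k2 k3 => ?_⟩
  by_cases q : p ∣ Nat.card K
  · refine .inr (k2.antisymm ?_)
    have n1 : N ≤ 𝐍(⨅ g : N, cj[(g : G)] K) := le_normalizer_iff_cj.2 fun u hu => le_iInf fun g => by
      rw [cj_le_iff, ← cj_mul]
      exact iInf_le (fun g : N => cj[(g : G)] K) ⟨u⁻¹ * g, mul_mem (inv_mem hu) g.2⟩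
    have l1 : (⨅ g : N, cj[(g : G)] K) ≤ K := (iInf_le (fun g : N => cj[(g : G)] K) ⟨1, one_mem N⟩).trans (cj_one K).le
    have a1 : 𝐎[2](N) ≤ ⨅ g : N, cj[(g : G)] K := le_iInf fun g => (cj_eq_self (nQ g.2)).ge.trans (cj_mono _ k1)
    have a2 : x ∈ ⨅ g : N, cj[(g : G)] K := mem_iInf.2 fun g => by
      refine h.mem ox d (cj_le_of_mem_normalizer (c g.2) k2) ?_ (by rwa [card_cj])
      rw [← cj_normalizer]
      exact (cj_eq_self (c g.2)).ge.trans (cj_mono _ k3)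
    exact (mn ⟨a1, l1.trans (k2.trans b), n1, a2⟩ (l1.trans k2)).trans l1
  · exact .inl (((h.le_O ox (ch.of_normal b c) d k2 k3 q).trans (pCoreOf_le_pCoreOf_of_normal b c)).antisymm k1)

theorem frat (m : x ∈ N) (n : N ≤ 𝐍(𝐎[2](N) ⊔ zpowers x)) : 𝐎[2](N) ⊔ (N ⊓ 𝐍(zpowers x)) = N := by
  have := Fact.mk h.pr
  have := (h.syl ox (mem_sup_right (mem_zpowers x))).frattini_sup (sup_le (pCoreOf_le 2 N) (zpowers_le.2 m)) n
  rwa [sup_assoc, sup_of_le_right (le_inf (zpowers_le.2 m) le_normalizer)] at this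

theorem sol_of (m : x ∈ N) (n : N ≤ 𝐍(𝐎[2](N) ⊔ zpowers x)) : Group.IsSolvable N :=
  h.frat ox m n ▸ BG.Sol.sup' (isSolvable_of_isPGroup (isPGroup_pCoreOf 2 N)) (BG.Sol.mono (h.sol_N ox) inf_le_right)
    (inf_le_left.trans (le_normalizer_pCoreOf 2 N))

end Hy

end CF.W7
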