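import Cfsg.Agent.W7.I

/-! Solvable subgroups of groups of order `p * 3 ^ a * 2 ^ b`. -/

set_option autoImplicit false
set_option linter.unusedSectionVars false

namespace CF.W7

open Subgroup Cfsg CF.Loc
open scoped commutatorElement

variable {G : Type*} [Group G] [Finite G] {p : ℕ} {A D E F H K L M N Q S T U V W X : Subgroup G} {x y g : G}

instance fact3 : Fact (Nat.Prime 3) := ⟨Nat.prime_three⟩

theorem cop23 (a : IsPGroup 2 D) (b : IsPGroup 3 A) : (Nat.card D).Coprime (Nat.card A) := by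
  obtain ⟨i, e⟩ := a.exists_card_eq
  obtain ⟨j, f⟩ := b.exists_card_eq
  rw [e, f]
  exact Nat.Coprime.pow _ _ (by decide)

theorem odd3 (b : IsPGroup 3 A) : Odd (Nat.card A) := by
  obtain ⟨j, f⟩ := b.exists_card_eq
  exact f ▸ Odd.pow (by decide)

theorem p3 (o : orderOf y = 3) : IsPGroup 3 (zpowers y) := isPGroup_zpowers_of_orderOf (k := 1) o

theorem c3 (o : orderOf y = 3) : Nat.card (zpowers y) = 3 := (Nat.card_zpowers y).trans o

theorem zp_ne (o : orderOf y = 3) : zpowers y ≠ ⊥ := fun e => by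
  have := c3 o
  rw [e, card_bot] at this
  omega

theorem sup2 (a : IsPGroup 2 D) (l : D ≤ H) : IsPGroup 2 ↥(𝐎[2](H) ⊔ D) :=
  IsPGroup.to_sup_of_normal_left' (isPGroup_pCoreOf 2 H) a (l.trans (le_normalizer_pCoreOf 2 H))

theorem cent_of_cyc (c : IsCyclic A) (a : IsPGroup 3 A) (e : IsPGroup 2 E) (n : E ≤ 𝐍(A)) (o : orderOf y = 3) (m : y ∈ A)
    (k : E ≤ 𝐂(zpowers y)) : E ≤ 𝐂(A) :=
  have k3 := BG.piGrp_of_isPGroup Nat.prime_three a
  k3.cent_of_Om (odd3 a) n (cop23 e a) (k.trans (centralizer_anti (BG.Cyc.Om_le c k3 (zpowers_le.2 m) (zp_ne o))))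

theorem mem_of_cyc (c : IsCyclic A) (a : IsPGroup 3 A) (l : X ≤ A) (x0 : X ≠ ⊥) (o : orderOf y = 3) (m : y ∈ A) : y ∈ X :=
  zpowers_le.1 (BG.Cyc.le_of_dvd c (zpowers_le.2 m) l ((c3 o).symm ▸ dvd_card_of_isPGroup (a.to_le l) x0))

namespace Hy
variable (h : Hy p G)
include h

theorem np3 (k : ¬ p ∣ Nat.card H) (d : IsPGroup 2 D) (l : D ≤ H) (n : ¬ D ≤ 𝐎[2](H)) (a : IsSyl 3 A H) :
    ∃ F, NP 3 𝐎[2](H) F H ∧ ¬ ⁅A ⊓ F, D⁆ ≤ 𝐎[2](H) ∧ 𝐎[2](H) ⊔ (H ⊓ 𝐍(A ⊓ F)) = H := by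
  have nQ := le_normalizer_pCoreOf 2 H
  obtain ⟨q, F, f, c⟩ := (sq_O (h.sol k)).exists_np l ((pResidualOf_eq_bot_of_isPGroup d).le.trans bot_le) n
  have c1 := commutator_le_left_of_le_normalizer (l.trans nQ)
  by_cases q3 : q = 3
  · subst q3
    have s := a.inf_of_le_normalizer f.le f.norm
    have e := s.sup_eq_of_pow_mem f.ge (f.le.trans nQ) f.pw
    exact ⟨F, f, fun k => c ((commutator_mono e.ge le_rfl).trans
      (commutator_sup_left_le le_normalizer (s.le.trans (f.le.trans nQ)) c1 k)), (sup_le (pCoreOf_le 2 H) inf_le_left).antisymm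
      ((s.frattini_sup f.le f.norm).ge.trans (sup_le (e.ge.trans (sup_le_sup_left (le_inf (inf_le_left.trans a.le)
        le_normalizer) _)) le_sup_right))⟩
  refine (c ((commutator_mono (fun g hg => ?_) le_rfl).trans c1)).elim
  obtain ⟨j, e⟩ := f.pw g hg
  obtain ⟨a, b, e'⟩ := h.dvd ((orderOf_dvd_natCard _ (f.le hg)).trans (card_subgroup_dvd_card H))
    fun d => k (d.trans (orderOf_dvd_natCard _ (f.le hg)))
  refine mem_of_pow_mem_of_coprime (e' ▸ Nat.Coprime.pow_right _ (Nat.Coprime.mul_left ?_ ?_)) e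
  · exact ((Nat.coprime_primes Nat.prime_three f.pr).2 (Ne.symm q3)).pow_left _
  · exact ((Nat.coprime_primes Nat.prime_two f.pr).2 f.ne.symm).pow_left _

omit h in
theorem np_inf (f : NP 3 Q F H) (d : IsPGroup 2 D) : D ⊓ F ≤ Q := fun g hg => by
  obtain ⟨j, e⟩ := f.pw g hg.2
  obtain ⟨i, o⟩ := orderOf_eq_pow_of_mem d hg.1
  exact mem_of_pow_mem_of_coprime (o ▸ Nat.Coprime.pow _ _ (by decide)) e

theorem sol_le (k : ¬ p ∣ Nat.card H) (d : IsPGroup 2 D) (l : D ≤ H) (a : IsSyl 3 A H) (n : A ≤ 𝐍(D)) : D ≤ 𝐎[2](H) :=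
  by_contra fun c => let ⟨_, f, c, _⟩ := h.np3 k d l c a
    c ((le_inf (commutator_le_right_of_le_normalizer (inf_le_left.trans n)) ((commutator_mono inf_le_right le_rfl).trans
      (commutator_le_left_of_le_normalizer (l.trans f.norm)))).trans (np_inf f d))

theorem thin_le (k : ¬ p ∣ Nat.card H) (t : ∀ A ≤ H, IsPGroup 3 A → IsCyclic A) (d : IsPGroup 2 D) (l : D ≤ H)
    (o : orderOf y = 3) (m : y ∈ H) (n : y ∈ 𝐍(D)) : D ≤ 𝐎[2](H) := by_contra fun c => by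
  have nQ := le_normalizer_pCoreOf 2 H
  obtain ⟨A, a, lA⟩ := exists_isSyl_ge (p3 o) (zpowers_le.2 m)
  obtain ⟨F, f, c, e⟩ := h.np3 k d l c a
  have a0 := a.isPGroup.to_inf_left (K := F)
  have m0 : y ∈ A ⊓ F := mem_of_cyc (t A a.le a.isPGroup) a.isPGroup inf_le_left (fun e => c (by simp [e])) o (lA (mem_zpowers y))
  have d' := (sup2 d l).to_inf_right (H := H ⊓ 𝐍(A ⊓ F))
  have c0 := t _ (inf_le_left.trans a.le) a0
  have n0 : H ⊓ 𝐍(A ⊓ F) ⊓ (𝐎[2](H) ⊔ D) ≤ 𝐍(A ⊓ F) := inf_le_left.trans inf_le_right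
  have c1 := cent_of_cyc c0 a0 d' n0 o m0 (le_centralizer_of_ne (by decide) (p3 o) d' (zpowers_le.2 (le_normalizer_inf
    (le_normalizer.trans' (le_inf (zpowers_le.2 m) ((zpowers_le.2 m0).trans le_normalizer))) (le_normalizer_sup
      ((zpowers_le.2 m).trans nQ) (zpowers_le.2 n)) (mem_zpowers y))) (BG.Cyc.le_norm c0 (zpowers_le.2 m0) n0))
  refine c ((commutator_mono le_rfl ((le_inf (l.trans e.ge) le_sup_right).trans (sup_inf_of_le_normalizer_left
    (inf_le_left.trans nQ) le_sup_left).le)).trans (commutator_sup_right_le le_normalizer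
      (inf_le_left.trans (inf_le_left.trans nQ)) (commutator_le_right_of_le_normalizer (inf_le_left.trans (a.le.trans nQ)))
      ((commutator_eq_bot_iff_le_centralizer'.2 c1).le.trans bot_le)))

theorem fs (ox : orderOf x = p) (s : Group.IsSolvable N) (ch : IsCharP 2 N) (m : x ∈ N) :
    𝐎[2](N) ⊔ (N ⊓ 𝐍(zpowers x)) = N := by
  obtain n | ⟨L, a, b, c, -, e, f⟩ := h.dich ox ch m
  · exact h.frat ox m n
  have n := b.trans (le_normalizer_pCoreOf 2 N)
  have l := commutator_le_left_of_le_normalizer (le_normalizer (H := L))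
  refine (e (l.trans (BG.qt_eq_bot n |>.1 (((BG.Sol.mono s b).qt _).eq_bot_of_le_der ?_)))).elim
  rw [← BG.qt_comm n n, BG.qt_le_qt_iff n (l.trans n)]
  exact ((f _ le_sup_left (sup_le a l) (le_normalizer_sup n (le_normalizer_commutator le_normalizer
    le_normalizer))).resolve_left fun k => e (le_sup_right.trans k.le)).ge

omit h in
theorem idx_of (s : IsPGroup 2 S) (l : S ≤ H) (e : H ≤ 𝐎[2](H) ⊔ (H ⊓ X)) {n : ℕ}
    (k : ∀ E ≤ H ⊓ X, IsPGroup 2 E → 𝐎[2](H).relIndex E ∣ n) : 𝐎[2](H).relIndex S ∣ n := by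
  have nQ := le_normalizer_pCoreOf 2 H
  rw [← relIndex_sup_of_le_normalizer (l.trans nQ), ← inf_of_le_right ((sup_le (pCoreOf_le 2 H) l).trans e),
    sup_inf_of_le_normalizer_left (inf_le_left.trans nQ) le_sup_left,
    relIndex_sup_of_le_normalizer (inf_le_left.trans (inf_le_left.trans nQ))]
  exact k _ inf_le_left (sup2 s l).to_inf_right

theorem idx_two (p7 : p = 7) (sol : Group.IsSolvable H) (ch : IsCharP 2 H) (t : ∀ A ≤ H, IsPGroup 3 A → IsCyclic A)
    (s : IsPGroup 2 S) (l : S ≤ H) : 𝐎[2](H).relIndex S ∣ 2 := by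
  have := Fact.mk h.pr
  by_cases k : p ∣ Nat.card H
  · obtain ⟨x, m, ox⟩ := exists_orderOf_eq_of_dvd_card k
    refine idx_of s l (h.fs ox sol ch m).ge fun E a b => ?_
    have c := BG.relIndex_cent_dvd_pred ((h.cz ox).symm ▸ h.pr) (a.trans inf_le_right)
    rw [← inf_relIndex_right, inf_comm, h.inf ox (h.nd (.inl rfl) b), h.cz ox, p7] at c
    obtain ⟨j, e⟩ := relIndex_eq_pow_of_isPGroup b 𝐎[2](H)
    have := (relIndex_dvd_of_le_left E (bot_le : ⊥ ≤ 𝐎[2](H))).trans c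
    rw [e] at this ⊢
    exact (Nat.Coprime.pow_left j (by decide : Nat.Coprime 2 3)).dvd_of_dvd_mul_left this
  by_cases c : S ≤ 𝐎[2](H)
  · rw [relIndex_eq_one.2 c]; exact one_dvd _
  obtain ⟨A, a⟩ := exists_isSyl 3 H
  obtain ⟨F, f, c, e⟩ := h.np3 k s l c a
  have a0 := a.isPGroup.to_inf_left (K := F)
  obtain ⟨y, m, o⟩ := exists_orderOf_eq_of_isPGroup a0 fun e => c (by simp [e])
  have mH := a.le m.1
  refine idx_of s l (X := 𝐍(zpowers y)) (e.ge.trans (sup_le_sup_left (inf_le_inf_left _ (BG.Cyc.norm_le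
    (t _ (inf_le_left.trans a.le) a0) (zpowers_le.2 m))) _)) fun E a b => ?_
  have c := BG.relIndex_cent_dvd_pred ((c3 o).symm ▸ Nat.prime_three) (a.trans inf_le_right)
  rw [← inf_relIndex_right, c3 o] at c
  exact (relIndex_dvd_of_le_left E (h.thin_le k t b.to_inf_right (inf_le_right.trans (a.trans inf_le_left)) o mH
    (centralizer_le_normalizer _ (le_centralizer_comm.1 inf_le_left (mem_zpowers y))))).trans c

end Hy

end CF.W7
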