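import Cfsg.Agent.W7.A

/-! Interface for the groups of order `p * 3 ^ a * 2 ^ b`. -/

set_option autoImplicit false
set_option linter.unusedSectionVars false

namespace CF.W7

open Subgroup Cfsg CF.Loc
open scoped commutatorElement MatrixGroups

variable {G : Type*} [Group G] [Finite G] {p : ℕ} {A K L M N Q S T U V W X : Subgroup G} {x y g : G}

def Cn (G : Type*) [Group G] : Prop :=
  Nonempty (G ≃* alternatingGroup (Fin 5)) ∨ Nonempty (G ≃* alternatingGroup (Fin 6)) ∨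
  (∃ (F : Type) (_ : Field F) (_ : Fintype F), Fintype.card F = 3 ∧ Nonempty (G ≃* PSp 2 F)) ∨
  (∃ (F : Type) (_ : Field F) (_ : Fintype F), (Fintype.card F = 7 ∨ Fintype.card F = 8 ∨ Fintype.card F = 17) ∧
    Nonempty (G ≃* PSL(2, F))) ∨
  (∃ (F : Type) (_ : Field F) (_ : Fintype F), Fintype.card F = 9 ∧ Nonempty (G ≃* PSU 3 F 3)) ∨
  (∃ (F : Type) (_ : Field F) (_ : Fintype F), Fintype.card F = 3 ∧ Nonempty (G ≃* PSL(3, F)))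

/-- `L / O₂(N)` is a simple normal subgroup of order `r` of `N / O₂(N)` -/
structure St (N L : Subgroup G) (r : ℕ) : Prop where
  lo : 𝐎[2](N) ≤ L
  le : L ≤ N
  nr : N ≤ 𝐍(L)
  idx : 𝐎[2](N).relIndex L = r
  sim : ∀ K, 𝐎[2](N) ≤ K → K ≤ L → L ≤ 𝐍(K) → K = 𝐎[2](N) ∨ K = L

/-- `L / Q ≅ L₂(q)` -/
def Is2 (Q L : Subgroup G) (q : ℕ) : Prop := ∃ (F : Type) (_ : Field F) (_ : Fintype F), Fintype.card F = q ∧
  ∃ f : L →* PSL(2, F), Function.Surjective f ∧ f.ker = Q.subgroupOf L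

def Y7 (N : Subgroup G) : Prop := ∃ L, St N L 168
def Y8 (N : Subgroup G) : Prop := ∃ L, St N L 504 ∧ Is2 𝐎[2](N) L 8
def Y17 (N : Subgroup G) : Prop := ∃ L, St N L 2448 ∧ Is2 𝐎[2](N) L 17
def Y3 (N : Subgroup G) : Prop := 27 ∣ Nat.card N ∧ ∀ g ∈ N, g ^ 9 = 1 → g ^ 3 = 1

/-- the types of the nonsolvable `2`-local subgroups -/
def Ty (p : ℕ) (G : Type*) [Group G] : Prop := ∀ U : Subgroup G, IsPGroup 2 U → U ≠ ⊥ → ¬ Group.IsSolvable 𝐍(U) →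
  (p = 7 ∧ (Y7 𝐍(U) ∨ Y8 𝐍(U) ∨ Y3 𝐍(U))) ∨ (p = 13 ∧ Y3 𝐍(U)) ∨ (p = 17 ∧ Y17 𝐍(U))

/-- the characteristic core is everything -/
def Gl (G : Type*) [Group G] : Prop := ∀ S M : Subgroup G, IsSyl 2 S ⊤ → S ≤ M → M ≠ ⊤ →
  ∃ U : Subgroup G, IsPGroup 2 U ∧ U ≠ ⊥ ∧ 𝐍(S) ≤ 𝐍(U) ∧ ¬ 𝐍(U) ≤ M

/-- Sylow `3`-subgroups normalize no nontrivial `2`-subgroup -/
def NR (G : Type*) [Group G] : Prop := ∀ R U : Subgroup G, IsSyl 3 R ⊤ → IsPGroup 2 U → R ≤ 𝐍(U) → U = ⊥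

/-- `2`-local subgroups have cyclic Sylow `3`-subgroups -/
def Tn (G : Type*) [Group G] : Prop := ∀ U A : Subgroup G, IsPGroup 2 U → U ≠ ⊥ → IsPGroup 3 A → A ≤ 𝐍(U) → IsCyclic A

/-- no four-group centralizes an element of order `3` -/
def F4 (G : Type*) [Group G] : Prop := ∀ y a b : G, orderOf y = 3 → a * a = 1 → b * b = 1 → a * b = b * a → y * a = a * y →
  y * b = b * y → a = 1 ∨ b = 1 ∨ a = b

/-- a nonsolvable `2`-local subgroup with largest `2`-part, and of largest order among these -/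
structure Mx (M T : Subgroup G) : Prop where
  o : 𝐎[2](M) ≠ ⊥
  ns : ¬ Group.IsSolvable M
  syl : IsSyl 2 T M
  eq : ∀ U : Subgroup G, IsPGroup 2 U → U ≠ ⊥ → M ≤ 𝐍(U) → 𝐍(U) = M
  sol : ∀ U X : Subgroup G, IsPGroup 2 U → U ≠ ⊥ → IsPGroup 2 X → X ≤ 𝐍(U) → Nat.card T < Nat.card X → Group.IsSolvable 𝐍(U)
  le : ∀ U : Subgroup G, IsPGroup 2 U → U ≠ ⊥ → T ≤ 𝐍(U) → Group.IsSolvable 𝐍(U) ∨ Nat.card 𝐍(U) ≤ Nat.card M

theorem exists_mx {U₀ : Subgroup G} (a0 : IsPGroup 2 U₀) (b0 : U₀ ≠ ⊥) (c0 : ¬ Group.IsSolvable 𝐍(U₀)) :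
    ∃ M T : Subgroup G, Mx M T := by
  obtain ⟨U₁, h1, m1⟩ := exists_max_card (L := ⊤) (fun U : Subgroup G => IsPGroup 2 U ∧ U ≠ ⊥ ∧ ¬ Group.IsSolvable 𝐍(U))
    (fun _ _ => le_top) ⟨a0, b0, c0⟩ fun U => (Nat.card 𝐍(U)).factorization 2
  obtain ⟨U, ⟨⟨a, b, c⟩, d⟩, m⟩ := exists_max_card (L := ⊤) (fun U : Subgroup G => (IsPGroup 2 U ∧ U ≠ ⊥ ∧
    ¬ Group.IsSolvable 𝐍(U)) ∧ (Nat.card 𝐍(U₁)).factorization 2 ≤ (Nat.card 𝐍(U)).factorization 2)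
    (fun _ _ => le_top) ⟨h1, le_rfl⟩ fun U => Nat.card 𝐍(U)
  obtain ⟨T, t⟩ := exists_isSyl 2 𝐍(U)
  have k : ∀ V X : Subgroup G, IsPGroup 2 X → X ≤ 𝐍(V) → Nat.card X ≤ 2 ^ (Nat.card 𝐍(V)).factorization 2 := fun V X a b =>
    let ⟨_, s⟩ := exists_isSyl 2 𝐍(V); s.card_eq ▸ s.card_le a b
  have l : ∀ V : Subgroup G, IsPGroup 2 V → V ≠ ⊥ → T ≤ 𝐍(V) → Group.IsSolvable 𝐍(V) ∨ Nat.card 𝐍(V) ≤ Nat.card 𝐍(U) := fun V a b c =>
    or_iff_not_imp_left.2 fun e => m V ⟨⟨a, b, e⟩, d.trans ((Nat.pow_le_pow_iff_right one_lt_two).1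
      (t.card_eq ▸ k V T t.isPGroup c))⟩
  refine ⟨_, T, fun e => b (le_bot_iff.1 ((le_pCoreOf a le_normalizer le_rfl).trans e.le)), c, t, fun V a b e =>
    (eq_of_le_of_card_le e ((l V a b (t.le.trans e)).resolve_left fun s => c (BG.Sol.mono s e))).symm,
    fun V X a b e f i => by_contra fun s => ?_, l⟩
  have := (k V X e f).trans (Nat.pow_le_pow_right two_pos ((m1 V ⟨a, b, s⟩).trans d))
  rw [← t.card_eq] at this
  omega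

namespace Mx
variable (m : Mx M T)
include m

theorem nq : 𝐍(𝐎[2](M)) = M := m.eq _ (isPGroup_pCoreOf 2 M) m.o (le_normalizer_pCoreOf 2 M)

theorem cj (hg : g ∈ M) : Mx M (cj[g] T) := ⟨m.o, m.ns, m.syl.cj_of_mem hg, m.eq, by simpa only [card_cj] using m.sol,
  fun U a b c => by
    have := m.le (cj[g⁻¹] U) (isPGroup_cj _ a) (mt cj_eq_bot_iff.1 b) (by rwa [← cj_normalizer, ← cj_le_iff])
    rw [← cj_normalizer, card_cj] at this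
    exact this.imp_left (BG.sol_map_iff (MulAut.conj _).injective).1⟩

theorem of (t : IsSyl 2 S M) : Mx M S := let ⟨_, a, e⟩ := m.syl.conj t; e ▸ m.cj a

theorem cq (h : Hy p G) : 𝐂(𝐎[2](M)) ≤ 𝐎[2](M) := by
  have := h.cq (isPGroup_pCoreOf 2 M) m.o
  rwa [m.nq] at this

theorem ch (h : Hy p G) : IsCharP 2 M := m.nq ▸ h.lc _ (isPGroup_pCoreOf 2 M) m.o

theorem ne_top [IsSimpleGroup G] : M ≠ ⊤ := fun e => by
  have : 𝐎[2](M).Normal := normal_of_top_le_normalizer (e.ge.trans (le_normalizer_pCoreOf 2 M))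
  refine this.eq_bot_or_eq_top.elim m.o fun k => m.ns (BG.Sol.mono (isSolvable_of_isPGroup (isPGroup_pCoreOf 2 M)) ?_)
  exact le_top.trans k.ge

theorem exists_x (h : Hy p G) : ∃ x ∈ M, orderOf x = p :=
  have := Fact.mk h.pr
  exists_orderOf_eq_of_dvd_card (by_contra fun k => m.ns (h.sol k))

theorem ty (t : Ty p G) : (p = 7 ∧ (Y7 M ∨ Y8 M ∨ Y3 M)) ∨ (p = 13 ∧ Y3 M) ∨ (p = 17 ∧ Y17 M) := by
  have := t _ (isPGroup_pCoreOf 2 M) m.o (m.nq.symm ▸ m.ns)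
  rwa [m.nq] at this

end Mx

end CF.W7
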