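import Cfsg.Agent.Classical.SL2

/-! Elements of order `17` in `L₂(17)`. -/

set_option autoImplicit false

namespace CF.W7.S17

open Subgroup CF.Classical
open scoped commutatorElement MatrixGroups

variable {F : Type*} [Field F] (h17 : (17 : F) = 0)
include h17

theorem two : (2 : F) ≠ 0 := fun h => one_ne_zero (α := F) (by linear_combination h17 - 8 * h)

theorem un {a b c d : F} (h : a * d - b * c = 1) (t : a + d = 2) (n : ¬ (b = 0 ∧ c = 0)) :
    orderOf (slToPSL F (sl2 a b c d h)) = 17 := by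
  haveI := Fact.mk (by norm_num : Nat.Prime 17)
  obtain rfl : d = 2 - a := by linear_combination t
  have k : ∀ n : ℕ, ∃ e, sl2 a b c (2 - a) h ^ n = sl2 (1 + n * (a - 1)) (n * b) (n * c) (1 + n * (1 - a)) e := fun n => by
    refine ⟨by linear_combination n ^ 2 * h, ?_⟩
    induction n with
    | zero => rw [pow_zero, one_eq_sl2, sl2_eq_sl2_iff]; simp
    | succ n ih =>
      rw [pow_succ, ih, sl2_mul, sl2_eq_sl2_iff]
      push_cast
      exact ⟨by linear_combination -n * h, by ring, by ring, by linear_combination -n * h⟩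
  refine orderOf_eq_prime ?_ fun e => n ?_
  · obtain ⟨e, k⟩ := k 17
    rw [← map_pow, k, slToPSL_eq_one_iff, one_eq_sl2, sl2_eq_sl2_iff]
    simp [h17]
  · rw [slToPSL_eq_one_iff, neg_one_eq_sl2, one_eq_sl2, sl2_eq_sl2_iff, sl2_eq_sl2_iff] at e
    tauto

theorem un' {a b c d : F} (h : a * d - b * c = 1) (t : a + d = -2) (n : ¬ (b = 0 ∧ c = 0)) :
    orderOf (slToPSL F (sl2 a b c d h)) = 17 := by
  rw [← slToPSL_neg, neg_sl2]
  exact un h17 _ (by linear_combination -t) (by simpa using n)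

theorem fa {x : PSL(2, F)} (x1 : x ≠ 1) : orderOf x = 17 ∨ ∃ g : PSL(2, F), orderOf ⁅x, g⁆ = 17 := by
  obtain ⟨x, rfl⟩ := slToPSL_surjective x
  obtain ⟨a, b, c, d, h, rfl⟩ := exists_sl2 x
  have k : ∀ s, ∃ e, ⁅slToPSL F (sl2 a b c d h), slToPSL F (sl2 1 s 0 1 (by simp))⁆ =
      slToPSL F (sl2 (1 - s * a * c) (s * a * a - s * (1 - s * a * c)) (-s * c * c) (s * s * c * c + 1 + s * a * c) e) := fun s => by
    refine ⟨by ring, ?_⟩
    rw [← map_commutatorElement, commutatorElement_def, sl2_inv, sl2_inv, sl2_mul, sl2_mul, sl2_mul]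
    refine congrArg _ (sl2_eq_sl2_iff.2 ⟨?_, ?_, ?_, ?_⟩)
    exacts [by linear_combination h, by linear_combination -s * h, by ring, by linear_combination h]
  by_cases c0 : c = 0
  swap
  · obtain ⟨e, k⟩ := k (8 / c)
    refine .inr ⟨_, k ▸ un' h17 e ?_ fun n => ?_⟩
    · field_simp
      linear_combination 4 * h17
    · have := n.2
      field_simp at this
      exact two h17 (by simp [c0] at this; linear_combination 2 * h17 - 4 * this)
  subst c0
  by_cases a1 : a * a = 1
  · have b0 : ¬ (b = 0 ∧ (0 : F) = 0) := fun n => x1 (by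
      rw [slToPSL_eq_one_iff, neg_one_eq_sl2, one_eq_sl2, sl2_eq_sl2_iff, sl2_eq_sl2_iff]
      rcases mul_self_eq_one_iff.1 a1 with rfl | rfl
      exacts [.inl ⟨rfl, n.1, rfl, by linear_combination h⟩, .inr ⟨rfl, n.1, rfl, by linear_combination -h⟩])
    rcases mul_self_eq_one_iff.1 a1 with rfl | rfl
    exacts [.inl (un h17 h (by linear_combination h) b0), .inl (un' h17 h (by linear_combination -h) b0)]
  · obtain ⟨e, k⟩ := k 1
    exact .inr ⟨_, k ▸ un h17 e (by ring) fun n => a1 (by linear_combination n.1)⟩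

theorem anti {A B : SL(2, F)} (a : A * A = -1) (b : B * B = -1) (n : slToPSL F A ≠ slToPSL F B)
    (c : slToPSL F A * slToPSL F B = slToPSL F B * slToPSL F A) : A * B = -(B * A) := by
  rw [← map_mul, ← map_mul, slToPSL_eq_iff] at c
  refine c.resolve_left fun c => n ?_
  have := (SL2_mul_self_eq_one_iff (two h17) (g := A * B)).1 (by
    rw [mul_assoc, ← mul_assoc B, ← c, mul_assoc, b, ← mul_assoc, a, neg_mul_neg, one_mul])
  rw [← slToPSL_eq_one_iff, map_mul] at this
  rw [eq_inv_of_mul_eq_one_left this, inv_eq_iff_mul_eq_one, ← map_mul, b, slToPSL_neg, map_one]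

theorem e4 {E : Subgroup PSL(2, F)} (s : ∀ x ∈ E, x * x = 1) : Nat.card E ≤ 4 := by
  have cm : ∀ x ∈ E, ∀ y ∈ E, x * y = y * x := fun x hx y hy => by
    rw [← inv_eq_of_mul_eq_one_right (s _ (mul_mem hx hy)), mul_inv_rev, inv_eq_of_mul_eq_one_right (s x hx),
      inv_eq_of_mul_eq_one_right (s y hy)]
  by_cases k : ∃ x ∈ E, ∃ y ∈ E, x ≠ 1 ∧ y ≠ 1 ∧ x ≠ y
  · obtain ⟨x, hx, y, hy, x1, y1, n⟩ := k
    refine (Set.ncard_le_ncard (s := E) (t := {1, x, y, x * y}) fun z hz => by_contra fun c => ?_).trans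
      ((Set.ncard_insert_le _ _).trans (Nat.succ_le_succ ((Set.ncard_insert_le _ _).trans (Nat.succ_le_succ
        ((Set.ncard_insert_le _ _).trans (Nat.succ_le_succ (Set.ncard_singleton _).le))))))
    simp only [Set.mem_insert_iff, Set.mem_singleton_iff, not_or] at c
    obtain ⟨A, rfl⟩ := slToPSL_surjective x
    obtain ⟨B, rfl⟩ := slToPSL_surjective y
    obtain ⟨C, rfl⟩ := slToPSL_surjective z
    have a := SL2_mul_self_eq_neg_one (two h17) x1 (s _ hx)
    have b := SL2_mul_self_eq_neg_one (two h17) y1 (s _ hy)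
    have d := SL2_mul_self_eq_neg_one (two h17) c.1 (s _ hz)
    have m := mul_mem hx hy
    rw [← map_mul] at m c
    have := anti h17 d (SL2_mul_self_eq_neg_one (two h17) (fun e => n (by
      rw [map_mul] at e
      rw [eq_inv_of_mul_eq_one_left e, inv_eq_of_mul_eq_one_right (s _ hy)])) (s _ m)) c.2.2.2 (cm _ hz _ m)
    rw [← mul_assoc, anti h17 d a c.2.1 (cm _ hz _ hx), neg_mul, mul_assoc, anti h17 d b c.2.2.1 (cm _ hz _ hy), mul_neg, neg_neg,
      ← mul_assoc, ← neg_one_mul, right_eq_mul] at this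
    exact neg_one_ne_one_SL2 (two h17) this
  · push Not at k
    by_cases k' : ∃ x ∈ E, x ≠ 1
    · obtain ⟨x, hx, x1⟩ := k'
      exact ((Set.ncard_le_ncard (s := E) (t := {1, x}) fun z hz => or_iff_not_imp_left.2 fun c => k z hz x hx c x1).trans
        (Set.ncard_insert_le _ _)).trans ((Nat.succ_le_succ (Set.ncard_singleton _).le).trans (by decide : 1 + 1 ≤ 4))
    · push Not at k'
      rw [(eq_bot_iff_forall E).2 k', card_bot]
      decide

theorem tr0 {a b c d : F} {h : a * d - b * c = 1} (e : sl2 a b c d h * sl2 a b c d h = -1) : d = -a := by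
  rw [sl2_mul, neg_one_eq_sl2, sl2_eq_sl2_iff] at e
  by_contra k
  have k' : a + d ≠ 0 := fun q => k (by linear_combination q)
  have b0 : b = 0 := (mul_eq_zero.1 (by linear_combination e.2.1 : b * (a + d) = 0)).resolve_right k'
  exact k' (mul_self_eq_zero.1 (by linear_combination e.1 + e.2.2.2 + 2 * h))

theorem fb {x y : PSL(2, F)} (x1 : x ≠ 1) (y1 : y ≠ 1) (n : x ≠ y) (x2 : x * x = 1) (y2 : y * y = 1) (c : x * y = y * x) :
    ∃ g h, g * x = x * g ∧ h * y = y * h ∧ orderOf (g * h) = 17 := by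
  obtain ⟨A, rfl⟩ := slToPSL_surjective x
  obtain ⟨B, rfl⟩ := slToPSL_surjective y
  have a := SL2_mul_self_eq_neg_one (two h17) x1 x2
  have b := SL2_mul_self_eq_neg_one (two h17) y1 y2
  have e := anti h17 a b n c
  obtain ⟨a1, a2, a3, a4, ha, rfl⟩ := exists_sl2 A
  obtain ⟨b1, b2, b3, b4, hb, rfl⟩ := exists_sl2 B
  obtain rfl := tr0 h17 a
  obtain rfl := tr0 h17 b
  rw [sl2_mul, sl2_mul, neg_sl2, sl2_eq_sl2_iff] at e
  refine ⟨slToPSL F (sl2 (3 + 3 * a1) (3 * a2) (3 * a3) (3 - 3 * a1) (by linear_combination 9 * ha + h17)),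
    slToPSL F (sl2 (6 + 4 * b1) (4 * b2) (4 * b3) (6 - 4 * b1) (by linear_combination 16 * hb + 3 * h17)), ?_, ?_, ?_⟩
  iterate 2 simp only [← map_mul, sl2_mul]; exact congrArg _ (sl2_eq_sl2_iff.2 ⟨by ring, by ring, by ring, by ring⟩)
  rw [← map_mul, sl2_mul]
  have k : ∀ {a b c d : F}, a * d - b * c = 1 → a + d = 2 → b = 0 → a = 1 := fun {a b c d} h t u =>
    sub_eq_zero.1 (mul_self_eq_zero.1 (by linear_combination a * t - h - c * u))
  have k' : ∀ {a b c d : F} (h : a * d - b * c = 1), a + d = 2 → (a = 1 → b = 0 → c = 0 → False) →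
      orderOf (slToPSL F (sl2 a b c d h)) = 17 := fun h t n => un h17 h t fun ⟨u, v⟩ => n (k h t u) u v
  exact k' _ (by linear_combination 12 * e.1 + 2 * h17) fun w u v => two h17 (by
    linear_combination 12 * (1 + a1) * e.1 - 36 * ha + (2 * a1 - 2) * h17 - (2 * a1 * w + a2 * v + a3 * u))

end CF.W7.S17
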