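import Cfsg.Agent.W7.D
import Cfsg.Agent.Fgs2.AutP

/-! `2`-local subgroups of type `L₃(2)`. -/

set_option autoImplicit false
set_option linter.unusedSectionVars false

namespace CF.W7

open Subgroup Cfsg CF.Loc
open scoped commutatorElement

variable {G : Type*} [Group G] [Finite G] {A D E F H K L M N Q S T U V W X : Subgroup G} {a b x y z g v w : G}

abbrev Vz (N : Subgroup G) : Subgroup G := omegaOneCenter 2 𝐎[2](N)

theorem mem_z (z2 : z * z = 1) : a ∈ zpowers z ↔ a = 1 ∨ a = z := by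
  refine ⟨fun ⟨k, e⟩ => ?_, fun e => e.elim (· ▸ one_mem _) (· ▸ mem_zpowers _)⟩
  obtain ⟨j, rfl | rfl⟩ := Int.even_or_odd' k
  · exact .inl (by simpa [zpow_mul, pow_two, z2] using e.symm)
  · exact .inr (by simpa [zpow_add, zpow_mul, pow_two, z2] using e.symm)

theorem card_z (z2 : z * z = 1) (z1 : z ≠ 1) : Nat.card (zpowers z) = 2 :=
  (Nat.card_zpowers z).trans (orderOf_eq_prime ((pow_two z).trans z2) z1)

theorem sq_of (e : IsElementaryAbelian 2 E) (m : a ∈ E) : a * a = 1 := (pow_two a).symm.trans (e.2 a m)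

theorem F4.le (f : F4 G) (o : orderOf y = 3) (e : IsElementaryAbelian 2 E) (m : z ∈ E) (z1 : z ≠ 1) (c : y * z = z * y) :
    E ⊓ 𝐂(zpowers y) ≤ zpowers z := fun a ha => (mem_z (sq_of e m)).2 ((f y a z o (sq_of e ha.1) (sq_of e m)
      (isElemAb_le_centralizer e m a ha.1) (ha.2 y (mem_zpowers y)) c).imp_right fun k => k.resolve_left z1)

theorem F4.card (f : F4 G) (o : orderOf y = 3) (e : IsElementaryAbelian 2 E) : Nat.card ↥(E ⊓ 𝐂(zpowers y)) ≤ 2 := by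
  by_cases k : E ⊓ 𝐂(zpowers y) = ⊥
  · simp [k]
  obtain ⟨⟨z, m⟩, z1⟩ := ne_bot_iff_exists_ne_one.1 k
  replace z1 : z ≠ 1 := fun e => z1 (Subtype.ext e)
  exact (card_le_card_of_le (f.le o e m.1 z1 (m.2 y (mem_zpowers y)))).trans (card_z (sq_of e m.1) z1).le

structure Sv (N : Subgroup G) (x : G) : Prop where
  hy : Hy 7 G
  f4 : F4 G
  tn : Tn G
  cq : 𝐂(𝐎[2](N)) ≤ 𝐎[2](N)
  mx : x ∈ N
  ox : orderOf x = 7
  e8 : ∀ E : Subgroup G, IsElementaryAbelian 2 E → N ≤ 𝐍(E) → Nat.card E ≤ 8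
  cV : Nat.card (Vz N) = 8
  idx : 𝐎[2](N).relIndex N = 168

theorem nV (N : Subgroup G) : N ≤ 𝐍(Vz N) := (le_normalizer_pCoreOf 2 N).trans (normalizer_le_normalizer_omegaOneCenter 2 _)

theorem eV (N : Subgroup G) : IsElementaryAbelian 2 (Vz N) := isElemAb_omegaOneCenter 2 _

theorem VQ (N : Subgroup G) : Vz N ≤ 𝐎[2](N) := omegaOneCenter_le 2 _

theorem QV (N : Subgroup G) : 𝐎[2](N) ≤ 𝐂(Vz N) := le_centralizer_omegaOneCenter 2 _

theorem Hy.cent_le {p : ℕ} (h : Hy p G) (ox : orderOf x = p) (ch : IsCharP 2 N) (m : x ∈ N) (v : IsPGroup 2 V) (v0 : V ≠ ⊥)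
    (n : N ≤ 𝐍(V)) : N ⊓ 𝐂(V) ≤ 𝐎[2](N) := by
  obtain ⟨z, m', o⟩ := exists_orderOf_eq_of_isPGroup v v0
  have := h.p7
  exact h.le_O ox ch m inf_le_left (le_normalizer_inf le_normalizer (le_normalizer_centralizer n))
    (h.nd_of_cent (g := z) (by rintro rfl; simp at o) (fun d => by have := Nat.le_of_dvd (by omega) d; omega)
      fun g hg => mem_centralizer_singleton_iff.2 (hg.2 z m').symm)

theorem exists_sv (h : Hy 7 G) (f : F4 G) (t : Tn G) (cq : 𝐂(𝐎[2](N)) ≤ 𝐎[2](N)) (o : 𝐎[2](N) ≠ ⊥) (k : Y7 N) :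
    ∃ x, Sv N x ∧ 3 ∣ (zpowers x).relIndex 𝐍(zpowers x) := by
  obtain ⟨L, s⟩ := k
  have := Fact.mk h.pr
  have pQ := isPGroup_pCoreOf 2 N
  have ch : IsCharP 2 N := inf_le_right.trans cq
  obtain ⟨x, m, ox⟩ := exists_orderOf_eq_of_dvd_card (p := 7) (H := L) (by
    rw [← card_mul_relIndex s.lo, s.idx]; exact Dvd.dvd.mul_left (by decide) _)
  have mN := s.le m
  have i := (h.idx2 ox m s.le s.nr s.lo (le_normalizer_pCoreOf 2 N mN) (h.nd (.inl rfl) pQ) (r := 24) s.idx).1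
  have l1 : zpowers x ≤ L ⊓ 𝐍(zpowers x) := le_inf (zpowers_le.2 m) le_normalizer
  obtain ⟨y, my, oy⟩ := exists_orderOf_eq_of_dvd_card (p := 3) (H := L ⊓ 𝐍(zpowers x)) (by
    rw [← card_mul_relIndex l1, i]; exact dvd_mul_left _ _)
  have e8 : ∀ E : Subgroup G, IsElementaryAbelian 2 E → N ≤ 𝐍(E) → Nat.card E ≤ 8 := fun E e n => by
    have i0 := h.inf ox (h.nd (.inl rfl) (isElemAb_isPGroup e))
    have w := BG2.wielandt_abelem (h.reg ox (h.nd (.inr rfl) (p3 oy))).symm (zpowers_le.2 my.2)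
      (isSolvable_of_isPGroup (h.pz ox)) (.of_isEA Nat.prime_two e) Nat.prime_two
      ((sup_le (zpowers_le.2 mN) (zpowers_le.2 (s.le my.1))).trans n)
      ((BG.piNat_compl_single Nat.prime_two).2 (by rw [h.cz ox]; decide))
    rw [i0, eq_bot_iff.2 ((inf_le_inf_left E (centralizer_anti le_sup_left)).trans i0.le), card_bot, c3 oy, one_pow, one_mul,
      mul_one] at w
    exact w.le.trans (Nat.pow_le_pow_left (f.card oy e) 3)
  have v0 := omegaOneCenter_ne_bot pQ o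
  have cV : Nat.card (Vz N) = 8 := by
    obtain ⟨c, e⟩ := h.mod ox (h.nd (.inl rfl) (isElemAb_isPGroup (eV N))) (nV N mN)
    have := e8 _ (eV N) (nV N)
    have : Nat.card (Vz N) ≠ 1 := mt card_eq_one.1 v0
    omega
  refine ⟨x, ⟨h, f, t, cq, mN, ox, e8, cV, Nat.dvd_antisymm ?_ ?_⟩, ?_⟩
  · have := (eV N).1
    have d := BG.relIndex_cent_dvd_card_aut (nV N)
    rw [Fgs2.card_mulAut_of_pow_eq_one (p := 2) (r := 3) (fun x => Subtype.ext ((eV N).2 x x.2)) cV, ← inf_relIndex_right,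
      inf_comm, (h.cent_le ox ch mN (isElemAb_isPGroup (eV N)) v0 (nV N)).antisymm (le_inf (pCoreOf_le 2 N) (QV N))] at d
    exact d
  · rw [← relIndex_mul_relIndex _ _ _ s.lo s.le, s.idx]; exact dvd_mul_right _ _
  · rw [← relIndex_mul_relIndex _ _ _ l1 inf_le_right, i]; exact dvd_mul_right _ _

namespace Sv
variable (s : Sv N x)
include s

theorem ch : IsCharP 2 N := inf_le_right.trans s.cq

theorem v0 : Vz N ≠ ⊥ := fun e => by simpa [e] using s.cV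

theorem cv : N ⊓ 𝐂(Vz N) ≤ 𝐎[2](N) := s.hy.cent_le s.ox s.ch s.mx (isElemAb_isPGroup (eV N)) s.v0 (nV N)

theorem fix (m : g ∈ zpowers x) (g1 : g ≠ 1) (hv : v ∈ 𝐎[2](N)) (c : g * v * g⁻¹ = v) : v = 1 :=
  ((s.hy.reg s.ox (s.hy.nd (.inl rfl) (isPGroup_pCoreOf 2 N))).eq_one m hv (mul_inv_eq_iff_eq_mul.1 c)).resolve_left g1

theorem tr (hz : z ∈ Vz N) (z1 : z ≠ 1) (hv : v ∈ Vz N) (v1 : v ≠ 1) : ∃ g ∈ zpowers x, g * z * g⁻¹ = v := by
  let f : Option (zpowers x) → Vz N := fun o => o.elim 1 fun g =>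
    ⟨g * z * (g : G)⁻¹, conj_mem_of_mem_normalizer (nV N (zpowers_le.2 s.mx g.2)) hz⟩
  have k : ∀ g : zpowers x, f (some g) ≠ 1 := fun g e => z1 (by simpa [f] using congrArg Subtype.val e)
  have i : Function.Injective f := by
    rintro (_ | a) (_ | b) e
    · rfl
    · exact (k b e.symm).elim
    · exact (k a e).elim
    · have e' : (a : G) * z * (a : G)⁻¹ = b * z * (b : G)⁻¹ := congrArg Subtype.val e
      refine congrArg some (Subtype.ext (by_contra fun c => z1 (s.fix (mul_mem (inv_mem b.2) a.2) (mt inv_mul_eq_one.1 (Ne.symm c))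
        (VQ N hz) ?_)))
      rw [mul_inv_rev, inv_inv, mul_assoc, mul_assoc, ← mul_assoc z, ← mul_assoc (a : G), ← mul_assoc (a : G), e']
      group
  obtain ⟨_ | g, e⟩ := (i.bijective_of_nat_card_le (by rw [s.cV, Finite.card_option, s.hy.cz s.ox])).2 ⟨v, hv⟩
  · exact (v1 (congrArg Subtype.val e).symm).elim
  · exact ⟨g, g.2, congrArg Subtype.val e⟩

theorem card : Nat.card N = Nat.card 𝐎[2](N) * 168 := by rw [← s.idx, card_mul_relIndex (pCoreOf_le 2 N)]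

theorem sup_c (hz : z ∈ Vz N) (z1 : z ≠ 1) : Nat.card N = Nat.card ↥(N ⊓ centralizer {z}) * 7 := by
  have i : N ⊓ centralizer {z} ⊓ zpowers x = ⊥ := eq_bot_iff.2 fun g hg => by_contra fun c =>
    z1 (s.fix hg.2 c (VQ N hz) (mul_inv_eq_of_eq_mul (mem_centralizer_singleton_iff.1 hg.1.2)))
  rw [← s.hy.cz s.ox, ← Nat.card_prod]
  refine (Nat.card_congr (Equiv.ofBijective (fun p : ↥(N ⊓ centralizer {z}) × zpowers x => (⟨p.2 * p.1,
    mul_mem (zpowers_le.2 s.mx p.2.2) p.1.2.1⟩ : N)) ⟨fun a b e => ?_, fun g => ?_⟩)).symm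
  · have e' : ((b.2 : G)⁻¹ * a.2) = b.1 * (a.1 : G)⁻¹ := by
      rw [inv_mul_eq_iff_eq_mul, ← mul_assoc, eq_mul_inv_iff_mul_eq]; exact congrArg Subtype.val e
    have e1 : ((b.2 : G)⁻¹ * a.2) = 1 := i.le (mem_inf.2 ⟨e' ▸ (N ⊓ centralizer {z}).mul_mem b.1.2
      ((N ⊓ centralizer {z}).inv_mem a.1.2), (zpowers x).mul_mem ((zpowers x).inv_mem b.2.2) a.2.2⟩)
    exact Prod.ext (Subtype.ext (mul_inv_eq_one.1 (e' ▸ e1)).symm) (Subtype.ext (inv_mul_eq_one.1 e1).symm)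
  · obtain ⟨u, hu, e⟩ := s.tr hz z1 (conj_mem_of_mem_normalizer (nV N g.2) hz) (by simpa using z1)
    refine ⟨(⟨u⁻¹ * g, N.mul_mem (N.inv_mem (zpowers_le.2 s.mx hu)) g.2, mem_centralizer_singleton_iff.2 ?_⟩, ⟨u, hu⟩),
      Subtype.ext (mul_inv_cancel_left _ _)⟩
    rw [mul_assoc, inv_mul_eq_iff_eq_mul, ← mul_assoc, ← mul_assoc, e, inv_mul_cancel_right]

theorem card_c (hz : z ∈ Vz N) (z1 : z ≠ 1) : Nat.card ↥(N ⊓ centralizer {z}) = Nat.card 𝐎[2](N) * 24 := by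
  have := s.sup_c hz z1
  have := s.card
  omega

theorem exists_y (hz : z ∈ Vz N) (z1 : z ≠ 1) : ∃ y ∈ N, orderOf y = 3 ∧ y * z = z * y :=
  let ⟨y, a, b⟩ := exists_orderOf_eq_of_dvd_card (p := 3) (H := N ⊓ centralizer {z})
    (s.card_c hz z1 ▸ Dvd.dvd.mul_left (by decide) _)
  ⟨y, a.1, b, mem_centralizer_singleton_iff.1 a.2⟩

end Sv

end CF.W7
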