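import Cfsg.Agent.W7.S1
import Cfsg.Agent.W7.V1
import Cfsg.Agent.QT.Qrc2

/-! `2`-local subgroups of type `L₂(17)`. -/

set_option autoImplicit false
set_option linter.unusedSectionVars false

namespace CF.W7

open Subgroup Cfsg CF.Loc CF.FF CF.QT
open scoped commutatorElement MatrixGroups

variable {G : Type*} [Group G] [Finite G] {B K L M T W : Subgroup G} {c d g x : G}

namespace S17

theorem idx_cj (hg : g ∈ M) (d : G) : (centralizer {g * d * g⁻¹}).relIndex (Vz M) = (centralizer {d}).relIndex (Vz M) := by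
  rw [← cj_centralizer_singleton, ← relIndex_cj g (centralizer {d}), cj_eq_self (nV M hg)]

theorem c_comm (d g : G) : centralizer {d} ⊓ centralizer {g * d * g⁻¹} ≤ centralizer ({⁅d, g⁆} : Set G) := fun v hv => by
  have a : Commute v d := mem_centralizer_singleton_iff.1 hv.1
  have b : Commute v (g * d * g⁻¹) := mem_centralizer_singleton_iff.1 hv.2
  exact mem_centralizer_singleton_iff.2 (by simpa [commutatorElement_def, mul_assoc] using (a.mul_right b.inv_right).eq)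

variable {F : Type} [Field F] (h : Hy 17 G) (m : Mx M T) (s : St M L 2448) (h17 : (17 : F) = 0) {f : L →* PSL(2, F)}
  (sj : Function.Surjective f) (k : f.ker = 𝐎[2](M).subgroupOf L)
include h

theorem md {u : L} (o : orderOf (f u) = 17) (w : W ≤ Vz M) (n : (u : G) ∈ 𝐍(W)) :
    ∃ x ∈ zpowers (u : G), orderOf x = 17 ∧ ∃ c, Nat.card W = c * 17 + 1 := by
  haveI := Fact.mk h.pr
  obtain ⟨x, a, b⟩ := exists_orderOf_eq_of_dvd_card (p := 17) (H := zpowers (u : G)) (by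
    rw [Nat.card_zpowers, orderOf_coe, ← o]; exact orderOf_map_dvd f u)
  exact ⟨x, a, b, h.mod b (h.nd (.inl rfl) ((isElemAb_isPGroup (eV M)).to_le w)) (zpowers_le.2 n a)⟩

theorem fx {u : L} (o : orderOf (f u) = 17) : Vz M ⊓ centralizer {(u : G)} = ⊥ := by
  have l : zpowers (u : G) ≤ 𝐂(Vz M ⊓ centralizer {(u : G)}) :=
    le_centralizer_iff.1 (inf_le_right.trans (centralizer_zpowers _).ge)
  obtain ⟨x, a, b, -⟩ := md h o inf_le_left (centralizer_le_normalizer _ (l (mem_zpowers _)))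
  exact eq_bot_iff.2 fun v hv => h.fix b (h.nd (.inl rfl) (isElemAb_isPGroup (eV M))) hv.1 (l a v hv).symm

include m

theorem cv : M ⊓ 𝐂(Vz M) ≤ 𝐎[2](M) :=
  let ⟨_, a, b⟩ := m.exists_x h
  h.cent_le b (m.ch h) a (isElemAb_isPGroup (eV M)) (omegaOneCenter_ne_bot (isPGroup_pCoreOf 2 M) m.o) (nV M)

include s

theorem low : ∃ x ∈ L, orderOf x = 17 ∧ (L.relIndex M = 1 ∨ L.relIndex M = 2) ∧ 2 ^ (8 * L.relIndex M) ≤ Nat.card (Vz M) := by
  haveI := Fact.mk h.pr
  have pQ := isPGroup_pCoreOf 2 M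
  obtain ⟨x, mx, ox⟩ := exists_orderOf_eq_of_dvd_card (p := 17) (H := L) (by
    rw [← card_mul_relIndex s.lo, s.idx]; exact Dvd.dvd.mul_left (by decide) _)
  have mM := s.le mx
  have nQ := le_normalizer_pCoreOf 2 M mM
  have i := (Nat.dvd_prime Nat.prime_two).1 ((Nat.mul_dvd_mul_iff_right (by decide : 0 < 8)).1 (show _ * 8 ∣ 2 * 8 from
    (h.idx2 ox mx s.le s.nr s.lo nQ (h.nd (.inl rfl) pQ) (r := 144) s.idx).2))
  refine ⟨x, mx, ox, i, ?_⟩
  have j := (h.idx2 ox mM le_rfl le_normalizer (pCoreOf_le 2 M) nQ (h.nd (.inl rfl) pQ) (r := 144 * L.relIndex M) (by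
    rw [← relIndex_mul_relIndex _ _ _ s.lo s.le, s.idx, ← mul_assoc]; rfl)).1
  obtain ⟨R, r⟩ := exists_isSyl 2 (M ⊓ 𝐍(zpowers x))
  have cR : Nat.card R = 8 * L.relIndex M := by
    rw [r.card_eq, ← card_mul_relIndex (le_inf (zpowers_le.2 mM) le_normalizer), j, h.cz ox]
    rcases i with i | i <;> rw [i] <;> decide +kernel
  have i0 := h.inf ox (h.nd (.inl rfl) (isElemAb_isPGroup (eV M)))
  have w := BG2.wielandt_abelem (h.reg ox (h.nd (.inl rfl) r.isPGroup)).symm (r.le.trans inf_le_right)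
    (isSolvable_of_isPGroup (h.pz ox)) (.of_isEA Nat.prime_two (eV M)) Nat.prime_two
    ((sup_le (zpowers_le.2 mM) (r.le.trans inf_le_left)).trans (nV M))
    ((BG.piNat_compl_single Nat.prime_two).2 (by rw [h.cz ox]; decide))
  rw [i0, eq_bot_iff.2 ((inf_le_inf_left _ (centralizer_anti le_sup_left)).trans i0.le), card_bot, cR, one_pow, one_mul,
    mul_one] at w
  exact (Nat.pow_le_pow_left ((one_lt_card_iff_ne_bot _).2 (inf_centralizer_ne_bot (isElemAb_isPGroup (eV M)) r.isPGroup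
    ((r.le.trans inf_le_left).trans (nV M)) (omegaOneCenter_ne_bot pQ m.o))) _).trans w.ge

include h17 sj k

omit m in
theorem sq (hd : d ∈ L) (d0 : d ∉ 𝐎[2](M)) : Nat.card (Vz M) ≤ (centralizer {d}).relIndex (Vz M) ^ 2 := by
  obtain ⟨g, hg, e⟩ : ∃ g ∈ L, Vz M ⊓ (centralizer {d} ⊓ centralizer {g * d * g⁻¹}) = ⊥ := by
    rcases fa h17 (x := f ⟨d, hd⟩) fun e => d0 (k.le e) with o | ⟨g, o⟩
    · exact ⟨1, one_mem _, eq_bot_iff.2 ((inf_le_inf_left _ inf_le_left).trans (fx h o).le)⟩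
    · obtain ⟨g, rfl⟩ := sj g
      rw [← map_commutatorElement] at o
      exact ⟨g, g.2, eq_bot_iff.2 ((inf_le_inf_left _ (c_comm d g)).trans (fx h o).le)⟩
  rw [← relIndex_bot_left, ← e, inf_relIndex_left, pow_two]
  exact relIndex_inf_le.trans (idx_cj (s.le hg) d ▸ le_rfl)

theorem no2F (l : B ≤ M) (b : IsPGroup 2 B) (o : Of3 (Vz M) B) : False := by
  obtain ⟨x, mx, ox, i, lw⟩ := low h m s
  have cq := cv h m
  have nQ := le_normalizer_pCoreOf 2 M
  have n1 : 𝐂(Vz M).relIndex B = 𝐎[2](M).relIndex (L ⊓ B) * L.relIndex B := by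
    rw [relIndex_inf_mul_relIndex, inf_of_le_left s.lo, ← inf_relIndex_left, ← inf_relIndex_left B 𝐎[2](M),
      le_antisymm (le_inf inf_le_left ((inf_le_inf_right _ l).trans cq)) (inf_le_inf_left B (QV M))]
  have n2 := relIndex_mono l L
  have n3 : 𝐎[2](M).relIndex (L ⊓ B) = Nat.card ((B.subgroupOf L).map f) := by
    rw [← relIndex_ker, k, ← inf_subgroupOf_left B, relIndex_subgroupOf inf_le_left]
  have s2 : ∀ y ∈ (B.subgroupOf L).map f, y * y = 1 := by
    rintro _ ⟨y, hy, rfl⟩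
    exact (map_mul f y y).symm.trans (k.ge (cq ⟨mul_mem (l hy) (l hy), (pow_two (y : G) ▸ o.sq _ hy : (y : G) * y ∈ 𝐂(Vz M))⟩))
  have n4 := e4 h17 s2
  have oc := o.card
  have lc : ∀ c ∈ B, 𝐂(B) ≤ centralizer {c} := fun c hc => centralizer_le (Set.singleton_subset_iff.2 hc)
  have jc := fun c hc => (relIndex_anti (lc c hc) (Vz M)).trans oc
  rw [n1, n3] at oc jc
  by_cases q : L ⊓ B ≤ 𝐎[2](M)
  · rw [← n3, relIndex_eq_one.2 q, one_mul] at jc
    obtain ⟨c, hc, c0⟩ := SetLike.not_le_iff_exists.1 o.nt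
    have cL : c ∉ L := fun e => c0 (QV M (q ⟨e, hc⟩))
    have i2 : L.relIndex M = 2 := i.resolve_left fun e => cL (relIndex_eq_one.1 e (l hc))
    have d0 : ⁅c, x⁆ ∉ 𝐎[2](M) := fun e => cL (by
      have lK : 𝐎[2](M) ⊔ zpowers c ≤ M := sup_le (pCoreOf_le 2 M) (zpowers_le.2 (l hc))
      have := h.comm ox (h.nd (.inl rfl) (sup2 (b.to_le (zpowers_le.2 hc)) (zpowers_le.2 (l hc)))) (mem_normalizer_of_cj_le (by
        rw [cj_sup, cj_eq_self (nQ (s.le mx)), cj_zpowers]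
        refine sup_le le_sup_left (zpowers_le.2 ?_)
        simpa [commutatorElement_def, mul_assoc] using
          mul_mem (mem_sup_left (inv_mem e) : _ ∈ 𝐎[2](M) ⊔ zpowers c) (mem_sup_right (mem_zpowers c))))
      exact (this.ge.trans ((commutator_mono le_rfl (zpowers_le.2 mx)).trans
        (commutator_le_right_of_le_normalizer (lK.trans s.nr)))) (mem_sup_right (mem_zpowers c)))
    have a1 := sq h s h17 sj k (commutator_le_right_of_le_normalizer s.nr (commutator_mem_commutator (l hc) mx)) d0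
    have a2 := (relIndex_anti (c_comm c x) (Vz M)).trans relIndex_inf_le
    rw [idx_cj (s.le mx)] at a2
    have a3 := (jc c hc).trans (Nat.pow_le_pow_left (i2 ▸ n2) 2)
    have := a1.trans (Nat.pow_le_pow_left (a2.trans (Nat.mul_le_mul a3 a3)) 2)
    rw [i2] at lw
    omega
  have ub : ∀ c ∈ B, c ∈ L → c ∉ 𝐎[2](M) → Nat.card (Vz M) ≤ (centralizer {c}).relIndex (Vz M) ^ 2 := fun c _ => sq h s h17 sj k
  obtain ⟨c, ⟨cL, hc⟩, c0⟩ := SetLike.not_le_iff_exists.1 q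
  have a1 := (ub c hc cL c0).trans (Nat.pow_le_pow_left (jc c hc) 2)
  rcases i with i | i
  swap
  · have := a1.trans (Nat.pow_le_pow_left (Nat.pow_le_pow_left (Nat.mul_le_mul n4 (i ▸ n2)) 2) 2)
    rw [i] at lw
    omega
  rw [i, mul_one] at lw
  rw [relIndex_eq_one.2 (l.trans (relIndex_eq_one.1 i)), mul_one] at oc a1
  have c4 : Nat.card ((B.subgroupOf L).map f) = 4 := n4.antisymm (by_contra fun e => by
    have := a1.trans (Nat.pow_le_pow_left (Nat.pow_le_pow_left (Nat.le_of_lt_succ (not_le.1 e)) 2) 2)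
    omega)
  rw [c4] at oc a1
  have w := card_mul_relIndex (inf_le_left : Vz M ⊓ 𝐂(B) ≤ _)
  rw [inf_relIndex_left] at w
  have key : ∀ y ∈ (B.subgroupOf L).map f, y ≠ 1 → 16 ≤ 𝐂(B).relIndex (Vz M) ∧ ∀ g : L, f g * y = y * f g → (g : G) ∈ 𝐍(Vz M ⊓ 𝐂(B)) := by
    rintro _ ⟨y, hy, rfl⟩ y1
    have u := lw.trans (ub y hy y.2 fun e => y1 (k.ge e))
    have u1 : 16 ≤ (centralizer {(y : G)}).relIndex (Vz M) := by nlinarith
    have u2 := relIndex_anti (lc y hy) (Vz M)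
    refine ⟨u1.trans u2, fun g e => ?_⟩
    have w' := card_mul_relIndex (inf_le_left : Vz M ⊓ centralizer {(y : G)} ≤ _)
    rw [inf_relIndex_left] at w'
    have e1 : Vz M ⊓ 𝐂(B) = Vz M ⊓ centralizer {(y : G)} := eq_of_le_of_card_le (inf_le_inf_left _ (lc y hy)) (by nlinarith)
    have e2 : (g : G) * y * (g : G)⁻¹ * (y : G)⁻¹ ∈ 𝐂(Vz M) := QV M (k.le (show f (g * y * g⁻¹ * y⁻¹) = 1 by simp [e]))
    rw [e1, ← cj_eq_self_iff, cj_inf, cj_eq_self (nV M (s.le g.2)), cj_centralizer_singleton]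
    refine Subgroup.ext fun v => and_congr_right fun hv => ?_
    refine mem_centralizer_singleton_iff.trans (Iff.trans ?_ mem_centralizer_singleton_iff.symm)
    rw [← inv_mul_cancel_right (g * y * (g : G)⁻¹) y, ← mul_assoc v, e2 v hv, mul_assoc, mul_assoc _ (y : G) v, mul_right_inj]
  obtain ⟨y, hy, z, hz, y1, z1, yz⟩ : ∃ y ∈ (B.subgroupOf L).map f, ∃ z ∈ (B.subgroupOf L).map f, y ≠ 1 ∧ z ≠ 1 ∧ y ≠ z := by
    by_contra! e
    have := (Set.ncard_le_ncard (s := (B.subgroupOf L).map f) (t := {1, f ⟨c, cL⟩}) fun z hz => or_iff_not_imp_left.2 fun n =>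
      e z hz _ ⟨_, hc, rfl⟩ n fun e => c0 (k.le e)).trans (Set.ncard_insert_le _ _)
    rw [Set.ncard_singleton] at this
    exact absurd (c4.ge.trans this) (by decide)
  obtain ⟨g, g', e1, e2, o⟩ := fb h17 y1 z1 yz (s2 y hy) (s2 z hz) (by
    rw [← inv_eq_of_mul_eq_one_right (s2 _ (mul_mem hy hz)), mul_inv_rev, inv_eq_of_mul_eq_one_right (s2 y hy),
      inv_eq_of_mul_eq_one_right (s2 z hz)])
  obtain ⟨g, rfl⟩ := sj g
  obtain ⟨g', rfl⟩ := sj g'
  obtain ⟨-, -, -, t, e⟩ := md h (map_mul f g g' ▸ o) inf_le_left (mul_mem ((key y hy y1).2 g e1) ((key z hz z1).2 g' e2))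
  rw [oc.antisymm (key y hy y1).1] at w
  omega

end S17

theorem Hy.pc {p : ℕ} (h : Hy p G) : ParChar 2 G := fun T L t l o => by
  have n := le_normalizer_pCoreOf 2 L
  exact (centralizer_anti (pCoreOf_le_pCoreOf_of_le n ((t.mono (l.trans n) le_top).pCoreOf_le.trans l))).trans
    ((h.cq (isPGroup_pCoreOf 2 L) o).trans (pCoreOf_le_pCoreOf_of_le n ((t.mono (l.trans n) le_top).pCoreOf_le.trans l)))

theorem p17 [IsSimpleGroup G] (h : Hy 17 G) (g : Gl G) (m : Mx M T) (y : Y17 M) : False := by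
  obtain ⟨L, s, F, _, _, c, f, sj, k⟩ := y
  have no := fun B => S17.no2F (B := B) h m s (by exact_mod_cast c ▸ FiniteField.cast_card_eq_zero F) sj k
  have TM := m.syl.le
  have hR : 𝐎[2](M) = T ⊓ 𝐂(Vz M) :=
    (le_inf m.syl.pCoreOf_le (QV M)).antisymm ((inf_le_inf_right _ TM).trans (S17.cv h m))
  have VT := (VQ M).trans m.syl.pCoreOf_le
  obtain ⟨S, t, l⟩ := exists_isSyl_ge m.syl.isPGroup le_top
  rcases l.eq_or_lt with rfl | l
  · obtain ⟨U, a, b, c, d⟩ := g T M t TM m.ne_top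
    obtain ⟨H, mn⟩ := exists_minimal_of_wellFoundedLT (· ∈ calHOverNotLE T M) ⟨𝐍(U), ⟨fun e => b (le_bot_iff.1
      ((le_pCoreOf a le_normalizer le_rfl).trans (pCoreOf_eq_bot_iff.2 e).le)), le_normalizer.trans c⟩, d⟩
    rcases qrc h.pc t m.o TM le_rfl (mt pCoreOf_eq_bot_iff.1 mn.1.1.1)
      (uMax_of_min t TM ⟨mn.1, fun K a b => b.antisymm (mn.2 a b)⟩) (eV M) (VT.trans TM) (nV M) hR
      (.inr (inf_le_right.trans (nV M))) with ⟨R, a, b, c⟩ | ⟨-, B, a, b⟩ | ⟨B, a, b, -⟩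
    · exact mn.1.2 ((le_sup_right.trans c).trans (m.eq R ((isPGroup_pCoreOf 2 M).to_le b) a (le_sup_left.trans c)).le)
    all_goals exact no B (a.trans TM) (t.isPGroup.to_le a) b
  by_cases cJ : 𝐉[2](T) ≤ 𝐂(Vz M)
  · have lJ := PLocal.thompson_le 2 T
    have := m.eq _ (m.syl.isPGroup.to_le lJ) (fun e => omegaOneCenter_ne_bot m.syl.isPGroup
      (fun e => m.o (le_bot_iff.1 (m.syl.pCoreOf_le.trans e.le))) (le_bot_iff.1 ((omega_le_J 2 T).trans e.le)))
      (PLocal.thompson_eq_of_le ((le_inf lJ cJ).trans hR.ge) m.syl.pCoreOf_le ▸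
        (le_normalizer_pCoreOf 2 M).trans (norm_thompson 2 _))
    have l' := lt_inf_normalizer t.isPGroup l
    exact l'.ne' (m.syl.eq_of_le t.isPGroup.to_inf_left l'.le (inf_le_right.trans ((norm_thompson 2 T).trans this.le)))
  obtain ⟨A, hA, q1, q2⟩ := PLocal.exists_quadratic_maxAb m.syl.isPGroup VT (eV M) (TM.trans (nV M)) cJ
  refine no A (hA.1.trans TM) (m.syl.isPGroup.to_le hA.1) (of2_of (eV M) (hA.1.trans (TM.trans (nV M))) q1
    (mt commutator_eq_bot_iff_le_centralizer'.2 q2) (le_sq_of_le ?_)).1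
  have := maxAb_off hA VT (eV M)
  rw [← card_mul_relIndex (inf_le_left : Vz M ⊓ 𝐂(A) ≤ _), ← card_mul_relIndex (inf_le_left : A ⊓ 𝐂(Vz M) ≤ A), mul_assoc,
    inf_relIndex_left, inf_relIndex_left, mul_comm (𝐂(Vz M).relIndex A)] at this
  exact Nat.le_of_mul_le_mul_left (Nat.le_of_mul_le_mul_left this Nat.card_pos) Nat.card_pos

end CF.W7
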