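import Cfsg.Agent.W7.V1

/-! Elements `w` with `[Q, w] ≤ ⟨z⟩` in a `2`-local subgroup of type `L₃(2)`. -/

set_option autoImplicit false
set_option linter.unusedSectionVars false

namespace CF.W7

open Subgroup Cfsg CF.Loc
open scoped commutatorElement

variable {G : Type*} [Group G] [Finite G] {A D E F H K L M N Q S T U V W X : Subgroup G} {a b x y z g u v w : G}

theorem rel_le {T : Type*} [Finite T] (f : A → T) (hf : ∀ a b : A, f a = f b → (a : G)⁻¹ * b ∈ D) :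
    D.relIndex A ≤ Nat.card T :=
  Nat.card_le_card_of_injective (fun q : A ⧸ D.subgroupOf A => f q.out) fun q r e =>
    q.out_eq'.symm.trans (((QuotientGroup.eq (s := D.subgroupOf A)).2 (hf _ _ e)).trans r.out_eq')

theorem irr8 (cW : Nat.card W = 8) (c : W ⊓ 𝐂(zpowers y) ≤ zpowers z) (z2 : z * z = 1) (z1 : z ≠ 1) (o : orderOf y = 3)
    (yz : y * z = z * y) (l : U ≤ W) (m : z ∈ U) (n : y ∈ 𝐍(U)) : U = zpowers z ∨ U = W := by
  obtain ⟨i, i3, e⟩ := (Nat.dvd_prime_pow Nat.prime_two (m := 3)).1 (cW ▸ card_dvd_of_le l)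
  have l1 := zpowers_le.2 m
  have c1 := card_le_card_of_le l1
  rw [card_z z2 z1] at c1
  interval_cases i
  · omega
  · exact .inl (eq_of_le_of_card_le l1 (by rw [card_z z2 z1, e]; rfl)).symm
  · have := card_le_card_of_le ((le_inf l (le_centralizer_comm.1 (zpowers_le.2
      (mem_centralizer_four e (by rw [o]; decide) n m z1 yz)))).trans c)
    rw [card_z z2 z1] at this
    omega
  · exact .inr (eq_of_le_of_card_le l (by omega))

theorem comm8 (cW : Nat.card W = 8) (c : W ⊓ 𝐂(zpowers y) ≤ zpowers z) (z2 : z * z = 1) (z1 : z ≠ 1) (o : orderOf y = 3)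
    (yz : y * z = z * y) (m : z ∈ W) (wz : W ≤ 𝐂(zpowers z)) (n : y ∈ 𝐍(W)) (d : IsPGroup 2 D) (nd : y ∈ 𝐍(D))
    (dW : D ≤ 𝐍(W)) (dz : D ≤ 𝐂(zpowers z)) : ⁅W, D⁆ ≤ zpowers z := by
  have nz : y ∈ 𝐍(zpowers z) := centralizer_le_normalizer _ (by rw [centralizer_zpowers]; exact mem_centralizer_singleton_iff.2 yz)
  obtain e | e := irr8 cW c z2 z1 o yz (sup_le (commutator_le_left_of_le_normalizer dW) (zpowers_le.2 m))
    (mem_sup_right (mem_zpowers z)) (le_normalizer_sup (le_normalizer_commutator (zpowers_le.2 n) (zpowers_le.2 nd))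
      (zpowers_le.2 nz) (mem_zpowers y))
  · exact le_sup_left.trans e.le
  have := card_le_card_of_le (le_of_le_commutator_sup (IsPGroup.to_sup_of_normal_left' (.of_card (n := 3) cW) d dW)
    le_sup_left le_sup_right ((sup_le wz dz).trans (centralizer_le_normalizer _)) e.ge)
  rw [card_z z2 z1] at this
  omega

theorem comm_mul (a b c : G) : ⁅a, b * c⁆ = ⁅a, b⁆ * (b * ⁅a, c⁆ * b⁻¹) := by
  simp only [commutatorElement_def]; group

def Dv (N : Subgroup G) (v : G) : Subgroup G := 𝐎[2](N) ⊓ secCent 𝐎[2](N) (zpowers v)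

theorem Dv.cj (m : g ∈ N) (v : G) : cj[g] (Dv N v) = Dv N (g * v * g⁻¹) := by
  rw [Dv, cj_inf, cj_secCent, cj_eq_self (le_normalizer_pCoreOf 2 N m), cj_zpowers, Dv]

theorem Dv.conj (m : g ∈ N) (h : w ∈ Dv N v) : g * w * g⁻¹ ∈ Dv N (g * v * g⁻¹) := Dv.cj m v ▸ conj_mem_cj g h

theorem z_inf (hv : v ∈ Vz N) (hu : u ∈ Vz N) (e : v ≠ u) (a1 : a ∈ zpowers v) (a2 : a ∈ zpowers u) : a = 1 :=
  ((mem_z (sq_of (eV N) hv)).1 a1).elim id fun k => ((mem_z (sq_of (eV N) hu)).1 a2).resolve_right fun k' => e (k.symm.trans k')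

theorem Dv.comm (hv : v ∈ Vz N) (hu : u ∈ Vz N) (e : v ≠ u) (h : a ∈ Dv N v) (k : b ∈ Dv N u) : a * b = b * a :=
  commutatorElement_eq_one_iff_mul_comm.1 (z_inf hv hu e (by
    rw [← commutatorElement_inv]; exact inv_mem (h.2.2 b k.1)) (k.2.2 a h.1))

theorem Dv.mul (hv : v ∈ Vz N) (h : w ∈ Dv N v) (ha : a ∈ 𝐎[2](N)) (hb : b ∈ 𝐎[2](N)) : ⁅a, b * w⁆ = ⁅a, b⁆ * ⁅a, w⁆ := by
  rw [comm_mul, conj_eq_of_mem_centralizer (QV N hb) (zpowers_le.2 hv (h.2.2 a ha))]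

theorem Dv.sq (hv : v ∈ Vz N) (h : w ∈ Dv N v) : w * w ∈ 𝐂(𝐎[2](N)) := fun a ha => commutatorElement_eq_one_iff_mul_comm.1 (by
  rw [Dv.mul hv h ha h.1]; exact sq_of (eV N) (zpowers_le.2 hv (h.2.2 a ha)))

namespace Sv
variable (s : Sv N x)
include s

theorem k1 (m : w ∈ N) (w0 : w ∉ 𝐎[2](N)) (c : ∀ a ∈ 𝐎[2](N), ⁅a, w⁆ ∈ Vz N) : 𝐎[2](N) ≤ Vz N := by
  have nQ := le_normalizer_pCoreOf 2 N
  have n := le_normalizer_inf (le_normalizer (H := N)) (le_normalizer_secCent nQ (nV N))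
  by_cases d : 7 ∣ Nat.card ↥(N ⊓ secCent 𝐎[2](N) (Vz N))
  · rw [← s.hy.comm s.ox (s.hy.nd (.inl rfl) (isPGroup_pCoreOf 2 N)) (nQ s.mx)]
    exact (le_secCent_iff.1 (zpowers_le.2 (s.hy.mem s.ox s.mx inf_le_left n d).2)).2
  exact (w0 (s.hy.le_O s.ox s.ch s.mx inf_le_left n d ⟨m, nV N m, c⟩)).elim

theorem pow7 (m : w ∈ 𝐎[2](N)) : w * (x * w * x⁻¹ * (x ^ 2 * w * (x ^ 2)⁻¹ * (x ^ 3 * w * (x ^ 3)⁻¹ * (x ^ 4 * w * (x ^ 4)⁻¹ *
    (x ^ 5 * w * (x ^ 5)⁻¹ * (x ^ 6 * w * (x ^ 6)⁻¹)))))) = 1 := by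
  have k : ∀ i, x ^ i * w * (x ^ i)⁻¹ ∈ 𝐎[2](N) := fun i =>
    conj_mem_of_mem_normalizer (le_normalizer_pCoreOf 2 N (pow_mem s.mx i)) m
  have k' := mul_mem m (mul_mem (pow_one x ▸ k 1) (mul_mem (k 2) (mul_mem (k 3) (mul_mem (k 4) (mul_mem (k 5) (k 6))))))
  have e : w * (x * w * x⁻¹ * (x ^ 2 * w * (x ^ 2)⁻¹ * (x ^ 3 * w * (x ^ 3)⁻¹ * (x ^ 4 * w * (x ^ 4)⁻¹ *
      (x ^ 5 * w * (x ^ 5)⁻¹ * (x ^ 6 * w * (x ^ 6)⁻¹)))))) = (w * x) ^ 7 * (x ^ 7)⁻¹ := by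
    simp only [pow_succ, pow_zero]; group
  rw [e, ← s.ox, pow_orderOf_eq_one, inv_one, mul_one, s.ox] at k' ⊢
  have n7 := s.hy.nd (.inl rfl) (isPGroup_pCoreOf 2 N)
  refine by_contra fun c => n7 (s.ox ▸ orderOf_dvd_natCard _ ((mul_mem_cancel_left m).1 (mem_of_pow_mem_of_coprime ?_ k')))
  have := s.hy.nd_of_cent (K := zpowers (w * x)) c (fun d => n7 (d.trans (orderOf_dvd_natCard _ k')))
    (zpowers_le.2 (mem_centralizer_singleton_iff.2 (Commute.self_pow _ _)))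
  rw [Nat.card_zpowers] at this
  exact ((Nat.Prime.coprime_iff_not_dvd s.hy.pr).2 this).symm

theorem mv (hv : v ∈ Vz N) (v1 : v ≠ 1) {i : ℕ} (i0 : 0 < i) (i7 : i < 7) : v ≠ x ^ i * v * (x ^ i)⁻¹ := fun e =>
  v1 (s.fix (npow_mem_zpowers x i) (pow_ne_one_of_lt_orderOf i0.ne' (s.ox ▸ i7)) (VQ N hv) e.symm)

theorem ab (hv : v ∈ Vz N) (hu : u ∈ Vz N) : Dv N v ≤ 𝐂(Dv N u) := fun a ha => by
  by_cases e : v = u
  swap
  · exact fun b hb => (Dv.comm hv hu e ha hb).symm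
  subst e
  by_cases v1 : v = 1
  · exact fun b hb => commutatorElement_eq_one_iff_mul_comm.1 (by simpa [v1] using ha.2.2 b hb.1)
  have k : ∀ i, 0 < i → i < 7 → x ^ i * a * (x ^ i)⁻¹ ∈ 𝐂(Dv N v) := fun i i0 i7 b hb => Dv.comm hv
    (conj_mem_of_mem_normalizer (nV N (pow_mem s.mx i)) hv) (s.mv hv v1 i0 i7) hb (Dv.conj (pow_mem s.mx i) ha)
  rw [eq_inv_of_mul_eq_one_left (s.pow7 ha.1)]
  exact inv_mem (mul_mem (pow_one x ▸ k 1 (by decide) (by decide)) (mul_mem (k 2 (by decide) (by decide)) (mul_mem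
    (k 3 (by decide) (by decide)) (mul_mem (k 4 (by decide) (by decide)) (mul_mem (k 5 (by decide) (by decide))
      (k 6 (by decide) (by decide)))))))

theorem idx8 : 𝐂(𝐎[2](N)).relIndex (⨆ v : Vz N, Dv N v) ≤ 8 := by
  set B := ⨆ v : Vz N, Dv N v
  have c : B ≤ 𝐂(B) := iSup_le fun v => le_centralizer_comm.1 (iSup_le fun u => s.ab u.2 v.2)
  have n : N ≤ 𝐍(B) := le_normalizer_iff_cj.2 fun g hg => by
    rw [cj_iSup]
    exact iSup_le fun v => (Dv.cj hg v).le.trans (le_iSup (fun v : Vz N => Dv N v) ⟨_, conj_mem_of_mem_normalizer (nV N hg) v.2⟩)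
  have := le_centralizer_iff_isMulCommutative.1 c
  let φ : B →* G := MonoidHom.mk' (fun b => b * b) fun a b => by
    rw [coe_mul, mul_assoc, ← mul_assoc (b : G), c a.2 b b.2, mul_assoc, mul_assoc]
  have r : φ.range ≤ 𝐂(𝐎[2](N)) ⊓ B := by
    rintro _ ⟨⟨b, hb⟩, rfl⟩
    refine ⟨iSup_induction' _ (C := fun b hb => φ ⟨b, hb⟩ ∈ 𝐂(𝐎[2](N))) (fun v b hb => Dv.sq v.2 hb) ?_
      (fun a b ha hb k1 k2 => ?_) hb, mul_mem hb hb⟩
    · exact (map_one φ).symm ▸ one_mem _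
    · exact (map_mul φ ⟨a, ha⟩ ⟨b, hb⟩).symm ▸ mul_mem k1 k2
  have k : Nat.card φ.ker ≤ 8 := by
    rw [← card_map_of_injective B.subtype_injective]
    refine (card_le_card_of_le (K := omegaOne 2 B) ?_).trans (s.e8 _ (isElemAb_omegaOne c) fun g hg => by
      rw [← cj_eq_self_iff, cj_omegaOne, cj_eq_self (n hg)])
    rintro _ ⟨b, hb, rfl⟩
    exact mem_omegaOne b.2 ((pow_two _).trans hb)
  have e1 := φ.ker.card_mul_index
  rw [index_ker, ← card_inf_mul_relIndex 𝐂(𝐎[2](N)) B] at e1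
  have := card_le_card_of_le r
  exact Nat.le_of_mul_le_mul_left (e1.ge.trans ((Nat.mul_le_mul k this).trans (mul_comm _ _).le)) Nat.card_pos

theorem k2 (hz : z ∈ Vz N) (z1 : z ≠ 1) (h : w ∈ Dv N z) : w ∈ 𝐂(𝐎[2](N)) := by_contra fun w0 => by
  have nQ := le_normalizer_pCoreOf 2 N
  have mP : ∀ g : zpowers x, (g : G) ∈ N := fun g => zpowers_le.2 s.mx g.2
  have hV : ∀ {g}, g ∈ N → g * z * g⁻¹ ∈ Vz N := fun hg => conj_mem_of_mem_normalizer (nV N hg) hz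
  have val : ∀ {v w a}, v ∈ Vz N → w ∈ Dv N v → a ∈ 𝐎[2](N) → w ∉ centralizer {a} → ⁅a, w⁆ = v := fun hv h ha k =>
    ((mem_z (sq_of (eV N) hv)).1 (h.2.2 _ ha)).resolve_left fun e =>
      k (mem_centralizer_singleton_iff.2 (commutatorElement_eq_one_iff_mul_comm.1 e).symm)
  have ex : ∀ {g}, g ∈ N → ∃ a ∈ 𝐎[2](N), ⁅a, g * w * g⁻¹⁆ = g * z * g⁻¹ := fun {g} hg => by_contra fun e => w0 (by
    rw [← cj_eq_self (le_normalizer_centralizer nQ (inv_mem hg)), mem_cj, inv_inv]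
    exact fun a ha => by_contra fun k => e ⟨a, ha, val (hV hg) (Dv.conj hg h) ha
      fun c => k (mem_centralizer_singleton_iff.1 c).symm⟩)
  have n0 : x ∉ 𝐍(𝐎[2](N) ⊓ centralizer {w}) := fun n => by
    obtain ⟨c, e1⟩ := s.hy.mod s.ox (s.hy.nd (.inl rfl) (isPGroup_pCoreOf 2 N)) (nQ s.mx)
    obtain ⟨d, e2⟩ := s.hy.mod s.ox (s.hy.nd (.inl rfl) (isPGroup_pCoreOf 2 N).to_inf_left) n
    have e3 := card_inf_mul_relIndex (centralizer {w}) 𝐎[2](N)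
    have e4 := rel_le (A := 𝐎[2](N)) (D := centralizer {w}) (fun a => (⟨_, h.2.2 _ a.2⟩ : zpowers z)) fun a b e => by
      have e' : ⁅(a : G), w⁆ = ⁅(b : G), w⁆ := congrArg Subtype.val e
      simp only [commutatorElement_def, mul_left_inj] at e'
      rw [mem_centralizer_singleton_iff, mul_assoc, inv_mul_eq_iff_eq_mul, ← mul_assoc, ← mul_assoc, e', inv_mul_cancel_right]
    have e5 : (centralizer {w}).relIndex 𝐎[2](N) ≠ 1 := fun e => w0 fun a ha =>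
      mem_centralizer_singleton_iff.1 (relIndex_eq_one.1 e ha)
    rw [card_z (sq_of (eV N) hz) z1] at e4
    rw [inf_comm, e1, e2] at e3
    generalize (centralizer {w}).relIndex 𝐎[2](N) = r at *
    interval_cases r <;> omega
  have zx := s.mv hz z1 one_pos (by decide)
  rw [pow_one] at zx
  have hx := Dv.conj s.mx h
  have two : ∃ a ∈ 𝐎[2](N), ∃ b ∈ 𝐎[2](N), ⁅a, w * (x * w * x⁻¹)⁆ = z ∧ ⁅b, w * (x * w * x⁻¹)⁆ = x * z * x⁻¹ := by
    have e : cj[x] (𝐎[2](N) ⊓ centralizer {w}) = 𝐎[2](N) ⊓ centralizer {x * w * x⁻¹} := by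
      rw [cj_inf, cj_eq_self (nQ s.mx), cj_centralizer_singleton]
    obtain ⟨a, a1, a2⟩ := SetLike.not_le_iff_exists.1 (mt mem_normalizer_of_cj_le n0)
    obtain ⟨b, b1, b2⟩ := SetLike.not_le_iff_exists.1 fun l => n0 (cj_eq_self_iff.1
      (eq_of_le_of_card_le l (card_cj x _).le).symm)
    rw [e] at a1 b2
    refine ⟨a, a1.1, b, b1.1, ?_, ?_⟩
    · rw [Dv.mul (hV s.mx) hx a1.1 h.1, commutatorElement_eq_one_iff_mul_comm.2 (mem_centralizer_singleton_iff.1 a1.2), mul_one]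
      exact val hz h a1.1 fun c => a2 ⟨a1.1, mem_centralizer_singleton_iff.2 (mem_centralizer_singleton_iff.1 c).symm⟩
    · rw [Dv.mul (hV s.mx) hx b1.1 h.1, commutatorElement_eq_one_iff_mul_comm.2 (mem_centralizer_singleton_iff.1 b1.2), one_mul]
      exact val (hV s.mx) hx b1.1 fun c => b2 ⟨b1.1, mem_centralizer_singleton_iff.2 (mem_centralizer_singleton_iff.1 c).symm⟩
  obtain ⟨a, ha, b, hb, ea, eb⟩ := two
  have le : ∀ {v}, v ∈ Vz N → Dv N v ≤ ⨆ v : Vz N, Dv N v := fun hv => le_iSup (fun v : Vz N => Dv N v) ⟨_, hv⟩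
  let f : Option (Option (zpowers x)) → ↥(⨆ v : Vz N, Dv N v) := fun o => o.elim 1 fun o => o.elim
    ⟨_, mul_mem (le hz h) (le (hV s.mx) hx)⟩ fun g => ⟨_, le (hV (mP g)) (Dv.conj (mP g) h)⟩
  have z' : ∀ g : G, g * z * g⁻¹ ≠ 1 := fun g => by simpa using z1
  have n1 : ∀ g : zpowers x, ¬ ∀ a ∈ 𝐎[2](N), ⁅a, w * (x * w * x⁻¹)⁆ = ⁅a, g * w * (g : G)⁻¹⁆ := fun g e => by
    have k := fun a ha => (mem_z (sq_of (eV N) (hV (mP g)))).1 (e a ha ▸ (Dv.conj (mP g) h).2.2 a ha)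
    exact zx (((ea ▸ k a ha).resolve_left z1).trans ((eb ▸ k b hb).resolve_left (z' x)).symm)
  have := Nat.card_le_card_of_injective (fun o => (f o : _ ⧸ 𝐂(𝐎[2](N)).subgroupOf (⨆ v : Vz N, Dv N v))) fun o o' e => by
    have k : ∀ a ∈ 𝐎[2](N), ⁅a, (f o : G)⁆ = ⁅a, (f o' : G)⁆ := fun a ha => by
      rw [← mul_inv_cancel_left (f o : G) (f o'), comm_mul, (commutatorElement_eq_one_iff_mul_comm (g₂ := (f o : G)⁻¹ * f o')).2
        (mem_subgroupOf.1 (QuotientGroup.eq.1 e) a ha), mul_one, mul_inv_cancel, mul_one]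
    obtain _ | _ | g := o <;> obtain _ | _ | g' := o'
    · rfl
    · exact (z1 (ea.symm.trans ((k a ha).symm.trans (commutatorElement_one_right a)))).elim
    · obtain ⟨a, ha, e⟩ := ex (mP g')
      exact (z' _ (e.symm.trans ((k a ha).symm.trans (commutatorElement_one_right a)))).elim
    · exact (z1 (ea.symm.trans ((k a ha).trans (commutatorElement_one_right a)))).elim
    · rfl
    · exact (n1 g' k).elim
    · obtain ⟨a, ha, e⟩ := ex (mP g)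
      exact (z' _ (e.symm.trans ((k a ha).trans (commutatorElement_one_right a)))).elim
    · exact (n1 g fun a ha => (k a ha).symm).elim
    · obtain ⟨a, ha, e⟩ := ex (mP g)
      have e' := ((mem_z (sq_of (eV N) (hV (mP g')))).1 (e.symm.trans (k a ha) ▸ (Dv.conj (mP g') h).2.2 a ha)).resolve_left (z' _)
      refine congrArg (some ∘ some) (Subtype.ext (by_contra fun c => z1 (s.fix (mul_mem (inv_mem g'.2) g.2)
        (mt inv_mul_eq_one.1 (Ne.symm c)) (VQ N hz) ?_)))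
      rw [mul_inv_rev, inv_inv, mul_assoc, mul_assoc, ← mul_assoc z, ← mul_assoc (g : G), ← mul_assoc (g : G), e']
      group
  rw [Finite.card_option, Finite.card_option, s.hy.cz s.ox] at this
  exact absurd (this.trans s.idx8) (by decide)

theorem kk (hz : z ∈ Vz N) (z1 : z ≠ 1) (m : w ∈ N) (c : ∀ a ∈ 𝐎[2](N), ⁅a, w⁆ ∈ zpowers z) (wz : w * z = z * w) :
    𝐎[2](N) ≤ Vz N ∨ w ∈ 𝐎[2](N) ⊓ 𝐂(𝐎[2](N)) := by
  by_cases k : w ∈ 𝐎[2](N)
  · exact .inr ⟨k, s.k2 hz z1 ⟨k, centralizer_le_normalizer _ (by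
      rw [centralizer_zpowers]; exact mem_centralizer_singleton_iff.2 wz), c⟩⟩
  · exact .inl (s.k1 m k fun a ha => zpowers_le.2 hz (c a ha))

end Sv

end CF.W7
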