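import Cfsg.Agent.W7.V2
import Cfsg.Agent.Transfer.Tate

/-! The centralizer of an involution of `Ω₁(Z(O₂(M)))`. -/

set_option autoImplicit false
set_option linter.unusedSectionVars false

namespace CF.W7

open Subgroup Cfsg CF.Loc
open scoped commutatorElement

variable {G : Type*} [Group G] [Finite G] {A D E F H K L M N Q S T U V W X : Subgroup G} {a b c x y z g u v w : G}

theorem two_part {r n m : ℕ} (e : r * n = 8 * m) (a : ∃ k, r = 2 ^ k) (b : ¬ 2 ∣ n) (c : ¬ 2 ∣ m) : r = 8 := by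
  obtain ⟨k, rfl⟩ := a
  have h1 : 2 ^ k ∣ 2 ^ 3 := (((Nat.Prime.coprime_iff_not_dvd Nat.prime_two).2 c).pow_left k).dvd_of_dvd_mul_right ⟨n, e.symm⟩
  have h2 : 2 ^ 3 ∣ 2 ^ k := (((Nat.Prime.coprime_iff_not_dvd Nat.prime_two).2 b).pow_left 3).dvd_of_dvd_mul_right ⟨m, e⟩
  exact Nat.dvd_antisymm h1 h2

theorem Tn.ny3 (t : Tn G) (u : IsPGroup 2 U) (u0 : U ≠ ⊥) : ¬ Y3 𝐍(U) := fun ⟨d, e⟩ => by
  obtain ⟨A, a⟩ := exists_isSyl 3 𝐍(U)
  obtain ⟨g, rfl⟩ := BG.Cyc.exists_gen (t U A u u0 a.isPGroup a.le)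
  have k : 27 ∣ orderOf g := by
    rw [← Nat.card_zpowers, a.card_eq]
    exact pow_dvd_pow 3 ((Nat.prime_three.pow_dvd_iff_le_factorization Nat.card_pos.ne').1 (show 3 ^ 3 ∣ _ from d))
  obtain ⟨k, o⟩ := k
  have := orderOf_dvd_iff_pow_eq_one.2 ((pow_mul g (3 * k) 3).trans (e _ (pow_mem (a.le (mem_zpowers g)) (3 * k))
    (by rw [← pow_mul, ← pow_orderOf_eq_one g, o]; congr 1; ring)))
  have k0 := orderOf_pos g
  have := Nat.le_of_dvd (by omega) this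
  omega

theorem exists_cen (y : IsPGroup 2 X) (n : X ≤ 𝐍(K)) (l : ¬ X ≤ K) :
    ∃ w ∈ X, w ∉ K ∧ w * w ∈ K ∧ ∀ a ∈ X, ⁅a, w⁆ ∈ K := by
  obtain ⟨⟨q, hq⟩, q1⟩ := ne_bot_iff_exists_ne_one.1 (omegaOneCenter_ne_bot
    ((BG.piGrp_of_isPGroup Nat.prime_two y).qt K).isPGroup (mt (BG.qt_eq_bot n).1 l))
  obtain ⟨m, c, e⟩ := mem_omegaOneCenter.1 hq
  obtain ⟨w, hw, nw, rfl⟩ := BG.mem_qt.1 m
  refine ⟨w, hw, fun k => q1 (Subtype.ext (BG.qe_of_mem k)), (BG.qe_eq_one (mul_mem nw nw)).1 ?_, fun a ha =>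
    (BG.qe_eq_one (n (commutator_le_left_of_le_normalizer le_normalizer (commutator_mem_commutator ha hw)))).1 ?_⟩
  · rw [BG.qe_mul nw nw, ← pow_two, e]
  · rw [BG.qe_comm (n ha) nw]
    exact commutatorElement_eq_one_iff_mul_comm.2 (c _ (BG.qe_mem_qt ha (n ha)))

abbrev Hz (z : G) : Subgroup G := 𝐍(zpowers z)
abbrev Qz (M : Subgroup G) (z : G) : Subgroup G := secCent (Vz M) (zpowers z)

theorem mem_H (c : g * z = z * g) : g ∈ Hz z :=
  centralizer_le_normalizer _ (by rw [centralizer_zpowers]; exact mem_centralizer_singleton_iff.2 c)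

structure Sy (M : Subgroup G) (x y z : G) : Prop extends Sv M x where
  hz : z ∈ Vz M
  z1 : z ≠ 1
  my : y ∈ M
  oy : orderOf y = 3
  yz : y * z = z * y

namespace Sy
variable (s : Sy M x y z)
include s

theorem z2 : z * z = 1 := sq_of (eV M) s.hz

theorem pz : IsPGroup 2 (zpowers z) := .of_card (n := 1) (card_z s.z2 s.z1)

theorem z0 : zpowers z ≠ ⊥ := mt zpowers_eq_bot.1 s.z1

theorem HC : Hz z ≤ 𝐂(zpowers z) := le_centralizer_of_card_two (card_z s.z2 s.z1) le_rfl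

theorem cz (m : g ∈ Hz z) : g * z = z * g := (s.HC m z (mem_zpowers z)).symm

theorem cj (m : g ∈ Hz z) (h : c ∈ zpowers z) : g * c * g⁻¹ = c := conj_eq_of_mem_centralizer (s.HC m) h

theorem n7 : ¬ 7 ∣ Nat.card (Hz z) := s.hy.nd_of_cent s.z1 (by
  rw [← Nat.card_zpowers, card_z s.z2 s.z1]; decide) (s.HC.trans (centralizer_zpowers z).le)

theorem th (A : Subgroup G) (l : A ≤ Hz z) (a : IsPGroup 3 A) : IsCyclic A := s.tn _ A s.pz s.z0 a l

theorem yH : y ∈ Hz z := mem_H s.yz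

theorem inY (d : IsPGroup 2 D) (l : D ≤ Hz z) (n : y ∈ 𝐍(D)) : D ≤ 𝐎[2](Hz z) := s.hy.thin_le s.n7 s.th d l s.oy s.yH n

theorem QH : 𝐎[2](M) ≤ Hz z := ((QV M).trans (centralizer_anti (zpowers_le.2 s.hz))).trans (centralizer_le_normalizer _)

theorem QY : 𝐎[2](M) ≤ 𝐎[2](Hz z) := s.inY (isPGroup_pCoreOf 2 M) s.QH (le_normalizer_pCoreOf 2 M s.my)

theorem Vy : Vz M ⊓ 𝐂(zpowers y) ≤ zpowers z := s.f4.le s.oy (eV M) s.hz s.z1 s.yz

theorem irr (l : U ≤ Vz M) (m : z ∈ U) (n : y ∈ 𝐍(U)) : U = zpowers z ∨ U = Vz M :=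
  irr8 s.cV s.Vy s.z2 s.z1 s.oy s.yz l m n

theorem cV' (d : IsPGroup 2 D) (l : D ≤ M) (l' : D ≤ Hz z) (n : y ∈ 𝐍(D)) : D ≤ Qz M z := le_secCent_iff.2 ⟨l',
  comm8 s.cV s.Vy s.z2 s.z1 s.oy s.yz s.hz (((VQ M).trans s.QH).trans s.HC) (nV M s.my) d n (l.trans (nV M)) (l'.trans s.HC)⟩

theorem YM : 𝐎[2](Hz z) ⊓ M ≤ Qz M z := s.cV' (isPGroup_pCoreOf 2 _).to_inf_left inf_le_right
  (inf_le_left.trans (pCoreOf_le 2 _)) (le_normalizer_inf (zpowers_le.2 (le_normalizer_pCoreOf 2 _ s.yH))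
    (zpowers_le.2 (le_normalizer s.my)) (mem_zpowers y))

theorem Q1N : Qz M z ≤ 𝐍(Vz M) :=
  le_normalizer_of_commutator_le le_rfl ((commutator_secCent_le _ _).trans (zpowers_le.2 s.hz))

theorem nQ1 : M ⊓ Hz z ≤ 𝐍(Qz M z) := le_normalizer_secCent (inf_le_left.trans (nV M)) inf_le_right

theorem QQ1 : 𝐎[2](M) ≤ Qz M z := le_secCent_iff.2 ⟨s.QH, (commutator_eq_bot_iff_le_centralizer'.2 (QV M)).le.trans bot_le⟩

theorem mul (hv : v ∈ Vz M) (ha : a ∈ Hz z) (hb : b ∈ Qz M z) : ⁅v, a * b⁆ = ⁅v, a⁆ * ⁅v, b⁆ := by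
  rw [comm_mul, s.cj ha (hb.2 v hv)]

variable (nv : 𝐍(Vz M) = M)
include nv

theorem Q1M : Qz M z ≤ M := s.Q1N.trans nv.le

theorem CQ : 𝐂(Vz M) ≤ 𝐎[2](M) := (le_inf ((centralizer_le_normalizer _).trans nv.le) le_rfl).trans s.cv

theorem sq1 (m : g ∈ Qz M z) : g * g ∈ 𝐎[2](M) := s.CQ nv fun v hv => commutatorElement_eq_one_iff_mul_comm.1 (by
  rw [s.mul hv m.1 m]; exact sq_of (eV M) (zpowers_le.2 s.hz (m.2 v hv)))

theorem pQ1 : IsPGroup 2 (Qz M z) := isPGroup_iff_forall.2 fun g m =>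
  let ⟨k, e⟩ := isPGroup_iff_forall.1 (isPGroup_pCoreOf 2 M) _ (s.sq1 nv m)
  ⟨k + 1, by rw [pow_succ', pow_mul, pow_two, e]⟩

theorem Q1Y : Qz M z ≤ 𝐎[2](Hz z) := s.inY (s.pQ1 nv) (secCent_le_normalizer _ _) (s.nQ1 ⟨s.my, s.yH⟩)

theorem ab1 : ⁅Qz M z, Qz M z⁆ ≤ 𝐎[2](M) := by
  have k : ⁅⁅Vz M, Qz M z⁆, Qz M z⁆ ≤ ⊥ := (commutator_mono (commutator_secCent_le _ _) le_rfl).trans
    (commutator_eq_bot_iff_le_centralizer'.2 ((secCent_le_normalizer _ _).trans s.HC)).le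
  exact (commutator_eq_bot_iff_le_centralizer.1 (le_bot_iff.1 (three_subgroups (N := ⊥) (le_normalizer_of_normal' _ _)
    (le_normalizer_of_normal' _ _) (le_normalizer_of_normal' _ _) (by rwa [commutator_comm (Qz M z) (Vz M)]) k))).trans (s.CQ nv)

theorem fy (m : g ∈ Qz M z) (c : ⁅y, g⁆ ∈ 𝐎[2](M)) : g ∈ 𝐎[2](M) := by
  refine s.CQ nv (le_centralizer_comm.1 ?_ (mem_zpowers g))
  rw [centralizer_zpowers]
  refine inf_eq_left.1 ((s.irr inf_le_left ⟨s.hz, mem_centralizer_singleton_iff.2 (s.cz m.1).symm⟩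
    (mem_normalizer_of_conj_mem fun v hv => ?_)).resolve_left fun e => ?_)
  · have h1 := conj_mem_of_mem_normalizer (nV M s.my) hv.1
    have h2 := QV M c _ h1
    have h3 := mem_centralizer_singleton_iff.1 hv.2
    refine ⟨h1, mem_centralizer_singleton_iff.2 (mul_left_cancel (a := ⁅y, g⁆) ?_)⟩
    calc _ = y * (v * g) * y⁻¹ := by rw [← mul_assoc, ← h2, commutatorElement_def]; group
      _ = _ := by rw [h3, commutatorElement_def]; group
  · have e1 := card_inf_mul_relIndex (centralizer {g}) (Vz M)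
    have e4 := rel_le (A := Vz M) (D := centralizer {g}) (fun a => (⟨_, m.2 _ a.2⟩ : zpowers z)) fun a b e => by
      have e' : ⁅(a : G), g⁆ = ⁅(b : G), g⁆ := congrArg Subtype.val e
      simp only [commutatorElement_def, mul_left_inj] at e'
      rw [mem_centralizer_singleton_iff, mul_assoc, inv_mul_eq_iff_eq_mul, ← mul_assoc, ← mul_assoc, e', inv_mul_cancel_right]
    rw [inf_comm, e, card_z s.z2 s.z1, s.cV] at e1
    rw [card_z s.z2 s.z1] at e4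
    omega

theorem u3 (m : w ∈ Qz M z) : (w * y) ^ 3 ∈ 𝐎[2](M) := by
  have y3 : y ^ 3 = 1 := s.oy ▸ pow_orderOf_eq_one y
  have n := s.nQ1 ⟨s.my, s.yH⟩
  have m1 := conj_mem_of_mem_normalizer n m
  have m2 := mul_mem m1 (conj_mem_of_mem_normalizer n m1)
  have e : (w * y) ^ 3 = w * (y * w * y⁻¹ * (y * (y * w * y⁻¹) * y⁻¹)) * y ^ 3 := by simp only [pow_succ, pow_zero]; group
  rw [e, y3, mul_one]
  refine s.fy nv (mul_mem m m2) ?_
  have e : ⁅y, w * (y * w * y⁻¹ * (y * (y * w * y⁻¹) * y⁻¹))⁆ = y * w * y⁻¹ * (y * (y * w * y⁻¹) * y⁻¹) * (y ^ 3 * w * (y ^ 3)⁻¹) *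
      (y * w * y⁻¹ * (y * (y * w * y⁻¹) * y⁻¹))⁻¹ * w⁻¹ := by simp only [commutatorElement_def]; group
  rw [e, y3, one_mul, inv_one, mul_one]
  exact s.ab1 nv (commutator_mem_commutator m2 m)

theorem big : Nat.card 𝐎[2](M) * 4 ≤ Nat.card (Qz M z) := by
  have l : 𝐎[2](M) ≤ M ⊓ centralizer {z} := le_inf (pCoreOf_le 2 M) (s.QH.trans (s.HC.trans (centralizer_zpowers z).le))
  have lH : M ⊓ centralizer {z} ≤ Hz z := fun g hg => mem_H (mem_centralizer_singleton_iff.1 hg.2)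
  have my : y ∈ M ⊓ centralizer {z} := ⟨s.my, mem_centralizer_singleton_iff.2 s.yz⟩
  obtain ⟨T, t, lT⟩ := exists_isSyl_ge (isPGroup_pCoreOf 2 M) l
  have e := card_mul_relIndex l
  rw [s.card_c s.hz s.z1, Nat.mul_right_inj Nat.card_pos.ne', ← relIndex_mul_relIndex _ _ _ lT t.le] at e
  have e1 := two_part (m := 3) e (relIndex_eq_pow_of_isPGroup t.isPGroup _) t.not_dvd_relIndex (by decide)
  have e2 := Nat.le_of_dvd two_pos (s.hy.idx_two rfl (s.hy.sol fun d => s.n7 (d.trans (card_dvd_of_le lH)))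
    (s.ch.of_pCoreOf_le l inf_le_left) (fun A a => s.th A (a.trans lH)) t.isPGroup t.le)
  have e3 := card_mul_relIndex lT
  have e4 := card_mul_relIndex t.pCoreOf_le
  have e5 := card_le_card_of_le (s.cV' (isPGroup_pCoreOf 2 _) ((pCoreOf_le 2 _).trans inf_le_left) ((pCoreOf_le 2 _).trans lH)
    (le_normalizer_pCoreOf 2 _ my))
  have := Nat.mul_le_mul_left (Nat.card 𝐎[2](M ⊓ centralizer {z})) e2
  rw [e1] at e3
  omega

theorem cvq : Vz M ⊓ 𝐂(Qz M z) ≤ zpowers z := by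
  refine ((s.irr inf_le_left ⟨s.hz, le_centralizer_comm.1 ((secCent_le_normalizer _ _).trans s.HC) (mem_zpowers z)⟩
    (le_normalizer_inf (zpowers_le.2 (nV M s.my)) (le_normalizer_centralizer (zpowers_le.2 (s.nQ1 ⟨s.my, s.yH⟩)))
      (mem_zpowers y))).resolve_right fun e => ?_).le
  have := card_le_card_of_le (H := Qz M z) ((le_centralizer_comm.1 (e.ge.trans inf_le_right)).trans (s.CQ nv))
  have := s.big nv
  have : 0 < Nat.card 𝐎[2](M) := Nat.card_pos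
  omega

theorem om (l : Qz M z ≤ S) (c : u ∈ 𝐂(S)) (u2 : u * u = 1) : u ∈ zpowers z :=
  have k := centralizer_anti (s.QQ1.trans l) c
  s.cvq nv ⟨mem_omegaOneCenter.2 ⟨s.cq k, k, (pow_two u).trans u2⟩, centralizer_anti l c⟩

theorem syl (t : IsSyl 2 S (Hz z)) : IsSyl 2 S ⊤ := by
  obtain ⟨T, t', l⟩ := exists_isSyl_ge t.isPGroup le_top
  have l1 := ((s.Q1Y nv).trans t.pCoreOf_le).trans l
  obtain ⟨⟨u, hu⟩, u1⟩ := ne_bot_iff_exists_ne_one.1 (omegaOneCenter_ne_bot t'.isPGroup fun e => s.z1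
    (mem_bot.1 (e.le (l1 (s.QQ1 (VQ M s.hz))))))
  have c := (mem_omegaOneCenter.1 hu).2.1
  obtain rfl : u = z := ((mem_z s.z2).1 (s.om nv l1 c (sq_of (isElemAb_omegaOneCenter 2 T) hu))).resolve_left
    fun e => u1 (Subtype.ext e)
  exact t.eq_of_le t'.isPGroup l (fun g hg => mem_H (c g hg)) ▸ t'

end Sy

end CF.W7
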