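import Cfsg.Agent.W7.V3

/-! `O₂(M)` is elementary abelian of order `8`. -/

set_option autoImplicit false
set_option linter.unusedSectionVars false

namespace CF.W7

open Subgroup Cfsg CF.Loc
open scoped commutatorElement

variable {G : Type*} [Group G] [Finite G] {A D E F H K L M N Q S T U V W X : Subgroup G} {a b c x y z g u v w : G}

theorem cen_two (l : 𝐎[2](N) ≤ S) (n : S ≤ N) (i : 𝐎[2](N).relIndex S ∣ 2) (hw : w ∈ Vz N) (ha : a ∈ S) :
    ⁅a, w⁆ ∈ 𝐂(S) ∧ ⁅a, w⁆ * ⁅a, w⁆ = 1 := by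
  have m : ⁅a, w⁆ ∈ Vz N := commutator_le_right_of_le_normalizer (n.trans (nV N)) (commutator_mem_commutator ha hw)
  refine ⟨?_, sq_of (eV N) m⟩
  by_cases k : a ∈ 𝐎[2](N)
  · rw [commutatorElement_eq_one_iff_mul_comm.2 (QV N k w hw).symm]; exact one_mem _
  have i2 := ((Nat.dvd_prime Nat.prime_two).1 i).resolve_left fun e => k (relIndex_eq_one.1 e ha)
  have c : a * ⁅a, w⁆ = ⁅a, w⁆ * a := by
    have h1 := QV N (sq_mem_of_relIndex_two i2 ha) w hw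
    refine mul_inv_eq_iff_eq_mul.1 (Eq.trans ?_ (inv_eq_of_mul_eq_one_right (sq_of (eV N) m)))
    calc _ = a * a * w * (a⁻¹ * w⁻¹ * a⁻¹) := by rw [commutatorElement_def]; group
      _ = _ := by rw [← h1, commutatorElement_def]; group
  intro g hg
  by_cases k' : g ∈ 𝐎[2](N)
  · exact (QV N k' _ m).symm
  have := QV N (mul_mem_of_relIndex_two i2 hg ha k' k) _ m
  rw [mul_assoc, c, ← mul_assoc, ← mul_assoc, mul_left_inj] at this
  exact this.symm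

namespace Sy
variable (s : Sy M x y z)
include s

theorem fin (m : w ∈ M) (c : ∀ a ∈ 𝐎[2](M), ⁅a, w⁆ ∈ zpowers z) (wz : w * z = z * w) (w2 : w * w = 1) (w0 : w ∉ Vz M) :
    𝐎[2](M) ≤ Vz M :=
  (s.kk s.hz s.z1 m c wz).resolve_right fun k => w0 (mem_omegaOneCenter.2 ⟨k.1, k.2, (pow_two w).trans w2⟩)

theorem qv1 [IsSimpleGroup G] (m : Mx M T) (t : Ty 7 G) (g : Gl G) (l : Hz z ≤ M) : 𝐎[2](M) ≤ Vz M := by
  have nv := m.eq _ (isElemAb_isPGroup (eV M)) s.v0 (nV M)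
  obtain ⟨S, sH⟩ := exists_isSyl 2 (Hz z)
  have sG := s.syl nv sH
  have SM := sH.le.trans l
  obtain ⟨U, u, u0, n, k⟩ := g S M sG SM m.ne_top
  have SN := le_normalizer.trans n
  have sN := sG.mono SN le_top
  have cq := s.hy.cq u u0
  have Q1S := (s.Q1Y nv).trans sH.pCoreOf_le
  have zc : z ∈ 𝐂(𝐎[2](𝐍(U))) := fun a ha => s.cz (sH.le (sN.pCoreOf_le ha))
  have zV : z ∈ Vz 𝐍(U) := mem_omegaOneCenter.2 ⟨cq zc, zc, (pow_two z).trans s.z2⟩
  obtain ⟨h, hN, h0⟩ := SetLike.not_le_iff_exists.1 k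
  have wV := conj_mem_of_mem_normalizer (nV _ hN) zV
  have wS := sN.pCoreOf_le (VQ _ wV)
  refine s.fin (SM wS) (fun a ha => ?_) (s.cz (sH.le wS)) (sq_of (eV _) wV) fun k => ?_
  swap
  · obtain ⟨v, hv, e⟩ := s.tr s.hz s.z1 k (by simpa using s.z1)
    refine h0 ((mul_mem_cancel_left (inv_mem (zpowers_le.2 s.mx hv))).1 (l (mem_H ?_)))
    calc _ = v⁻¹ * (h * z * h⁻¹) * h := by group
      _ = _ := by rw [← e]; group
  by_cases so : Group.IsSolvable 𝐍(U)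
  · have := cen_two sN.pCoreOf_le SN (s.hy.idx_two rfl so (s.hy.lc U u u0) (fun A a b => s.tn U A u u0 b a) sG.isPGroup SN) wV
      (Q1S (s.QQ1 ha))
    exact s.om nv Q1S this.1 this.2
  obtain ⟨-, k | ⟨L, k, -⟩ | k⟩ | k | k := t U u u0 so
  · obtain ⟨x', s', -⟩ := exists_sv s.hy s.f4 s.tn cq (fun e => s.z1 (mem_bot.1 (e.le (VQ _ zV)))) k
    obtain ⟨y', a1, a2, a3⟩ := s'.exists_y zV s.z1
    have := (Sy.mk s' zV s.z1 a1 a2 a3).YM ⟨s.QY ha, SN (Q1S (s.QQ1 ha))⟩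
    rw [← commutatorElement_inv]
    exact inv_mem (this.2 _ wV)
  · have sM := sG.mono SM le_top
    have e1 := ((m.of sM).le U u u0 SN).resolve_left so
    have e2 := relIndex_mul_relIndex _ _ _ sM.pCoreOf_le SM
    rw [s.idx] at e2
    rw [two_part (m := 21) e2 (relIndex_eq_pow_of_isPGroup sM.isPGroup _) sM.not_dvd_relIndex (by decide)] at e2
    have e3 := card_mul_relIndex SM
    have e4 := card_mul_relIndex SN
    obtain ⟨j, e5⟩ := sG.isPGroup.exists_card_eq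
    have e6 : 63 ∣ S.relIndex 𝐍(U) := (Nat.Coprime.pow_right j (by decide : Nat.Coprime 63 2)).dvd_of_dvd_mul_left (by
      rw [← e5, e4]
      refine Dvd.dvd.trans ?_ (card_dvd_of_le k.le)
      rw [← card_mul_relIndex k.lo, k.idx]
      exact Dvd.dvd.mul_left (by decide) _)
    have := Nat.mul_le_mul_left (Nat.card S) (Nat.le_of_dvd (Nat.pos_of_ne_zero index_ne_zero_of_finite) e6 :
      63 ≤ S.relIndex 𝐍(U))
    have : 0 < Nat.card S := Nat.card_pos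
    rw [show S.relIndex M = 21 by omega] at e3
    omega
  · exact (s.tn.ny3 u u0 k).elim
  all_goals omega

theorem qv2 (nv : 𝐍(Vz M) = M) (l : ¬ Hz z ≤ M) : 𝐎[2](M) ≤ Vz M := by_contra fun q0 => by
  set Z := ⨅ h : Hz z, cj[(h : G)] (𝐎[2](M) ⊓ 𝐂(𝐎[2](M)))
  have nZ : Hz z ≤ 𝐍(Z) := le_normalizer_iff_cj.2 fun u hu => le_iInf fun g => by
    rw [cj_le_iff, ← cj_mul]
    exact iInf_le (fun h : Hz z => cj[(h : G)] (𝐎[2](M) ⊓ 𝐂(𝐎[2](M)))) ⟨u⁻¹ * g, mul_mem (inv_mem hu) g.2⟩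
  have lZ : Z ≤ 𝐎[2](M) ⊓ 𝐂(𝐎[2](M)) := (iInf_le (fun h : Hz z => cj[(h : G)] (𝐎[2](M) ⊓ 𝐂(𝐎[2](M)))) 1).trans (cj_one _).le
  have ZQ := lZ.trans inf_le_left
  have ZC := lZ.trans inf_le_right
  have ab : Z ≤ 𝐂(Z) := ZC.trans (centralizer_anti ZQ)
  have zZ : z ∈ Z := mem_iInf.2 fun h => by
    rw [mem_cj, mul_assoc, ← s.cz h.2, inv_mul_cancel_left]
    exact ⟨VQ M s.hz, omegaOneCenter_le_centralizer 2 _ s.hz⟩
  have oV : omegaOne 2 Z ≤ Vz M := le_omegaOneCenter (isElemAb_omegaOne ab) ((omegaOne_le 2 Z).trans ZQ) ((omegaOne_le 2 Z).trans ZC)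
  have nO := nZ.trans (normalizer_le_normalizer_omegaOne 2 Z)
  have oz := (s.irr oV (mem_omegaOne zZ ((pow_two z).trans s.z2)) (nO s.yH)).resolve_right fun e => l (nv ▸ e ▸ nO)
  have inv : ∀ c ∈ Z, c * c = 1 → c ∈ zpowers z := fun c a b => oz.le (mem_omegaOne a ((pow_two c).trans b))
  have pZ := (isPGroup_pCoreOf 2 M).to_le ZQ
  have yZ : y ∈ 𝐂(Z) := zpowers_le.1 (BG.Abel.cent_of_Om ab (BG.piGrp_of_isPGroup Nat.prime_two pZ) (zpowers_le.2 (nZ s.yH))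
    (cop23 pZ (p3 s.oy)).symm (oz.symm ▸ zpowers_le.2 (s.HC s.yH)))
  have YH := pCoreOf_le 2 (Hz z)
  have VY := (VQ M).trans s.QY
  have key : ∀ w ∈ 𝐎[2](Hz z), w * w ∈ Z → (∀ a ∈ 𝐎[2](Hz z), ⁅a, w⁆ ∈ Z) → w ∈ 𝐎[2](M) ⊓ 𝐂(𝐎[2](M)) := fun w hw w2 c => by
    have w1 : w ∈ Qz M z := ⟨YH hw, fun v hv => inv _ (c v (VY hv)) (by
      have h1 := ZC (c v (VY hv)) v (VQ M hv)
      have h2 := sq_of (eV M) hv
      calc _ = ⁅v, w⁆ * v * (v⁻¹ * ⁅v, w⁆) := by group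
        _ = v * v * w * (v * v)⁻¹ * w⁻¹ := by rw [← h1, commutatorElement_def]; group
        _ = 1 := by rw [h2]; group)⟩
    have nC := le_normalizer_centralizer nZ
    have wZ : w ∈ 𝐂(Z) := by
      obtain ⟨k, o⟩ := orderOf_eq_pow_of_mem (isPGroup_pCoreOf 2 _) hw
      refine mem_of_pow_mem_of_coprime (n := 3) (o ▸ Nat.Coprime.pow_left _ (by decide)) ?_
      have h1 := conj_mem_of_mem_normalizer' (nC (YH hw)) yZ
      rw [show w ^ 3 = (w * y) ^ 3 * (w⁻¹ * (w⁻¹ * y * w) * w * (w⁻¹ * y * w) * y)⁻¹ by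
        simp only [pow_succ, pow_zero, one_mul, mul_inv_rev, inv_inv, mul_assoc, mul_inv_cancel_left, mul_inv_cancel, mul_one]]
      exact mul_mem (le_centralizer_comm.1 ZC (s.u3 nv w1)) (inv_mem (mul_mem (mul_mem
        (conj_mem_of_mem_normalizer' (nC (YH hw)) h1) h1) yZ))
    refine (s.kk s.hz s.z1 (s.Q1M nv w1) (fun a ha => inv _ (c a (s.QY ha)) ?_) (s.cz (YH hw))).resolve_left q0
    rw [← commutatorElement_eq_one_iff_mul_comm.2 (ZC w2 a ha), comm_mul, conj_eq_of_mem_centralizer wZ (c a (s.QY ha))]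
  obtain ⟨w, hw, w0, w2, c⟩ := exists_cen (isPGroup_pCoreOf 2 _) (YH.trans nZ) fun e => by
    have := card_le_card_of_le (((eV M).2 |> fun k => fun v hv => mem_omegaOne (e (VY hv)) (k v hv) : Vz M ≤ omegaOne 2 Z).trans oz.le)
    rw [s.cV, card_z s.z2 s.z1] at this
    omega
  have nY := le_normalizer_pCoreOf 2 (Hz z)
  refine w0 (mem_iInf.2 fun h => mem_cj.2 (key _ (conj_mem_of_mem_normalizer' (nY h.2) hw) ?_ fun a ha => ?_))
  · rw [show (h : G)⁻¹ * w * h * ((h : G)⁻¹ * w * h) = (h : G)⁻¹ * (w * w) * h by group]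
    exact conj_mem_of_mem_normalizer' (nZ h.2) w2
  · rw [show ⁅a, (h : G)⁻¹ * w * h⁆ = (h : G)⁻¹ * ⁅h * a * (h : G)⁻¹, w⁆ * h by simp only [commutatorElement_def]; group]
    exact conj_mem_of_mem_normalizer' (nZ h.2) (c _ (conj_mem_of_mem_normalizer (nY h.2) ha))

end Sy

end CF.W7
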