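import Cfsg.Agent.W7.V4
import Cfsg.Agent.LX.Basic

/-! The extraspecial group of order `32` in `2³ L₃(2)`. -/

set_option autoImplicit false
set_option linter.unusedSectionVars false

namespace CF.W7

open Subgroup Cfsg CF.Loc
open scoped commutatorElement

variable {G : Type*} [Group G] [Finite G] {A D E F H K L M N Q S T U V W X : Subgroup G} {a b c x y z g r u v w : G}

def sc (v : G) (W : Subgroup G) : Subgroup G where
  carrier := {g | g ∈ 𝐍(W) ∧ ⁅v, g⁆ ∈ W}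
  one_mem' := ⟨one_mem _, by simp [W.one_mem]⟩
  mul_mem' := fun {a b} ha hb => ⟨mul_mem ha.1 hb.1, comm_mul v a b ▸ mul_mem ha.2 (conj_mem_of_mem_normalizer ha.1 hb.2)⟩
  inv_mem' := fun {a} ha => ⟨inv_mem ha.1, by
    rw [show ⁅v, a⁻¹⁆ = a⁻¹ * ⁅v, a⁆⁻¹ * a by simp only [commutatorElement_def]; group]
    exact conj_mem_of_mem_normalizer' ha.1 (inv_mem ha.2)⟩

theorem swap_mem (h : ⁅a, b⁆ ∈ K) : ⁅b, a⁆ ∈ K := commutatorElement_inv a b ▸ inv_mem h

theorem card_sup_z (n : g ∈ 𝐍(V)) (g0 : g ∉ V) (g2 : g * g ∈ V) : Nat.card ↥(V ⊔ zpowers g) = Nat.card V * 2 := by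
  rw [← card_mul_relIndex le_sup_left, relIndex_sup_of_le_normalizer (zpowers_le.2 n)]
  congr 1
  refine relIndex_eq_two_iff.2 ⟨g, mem_zpowers g, ?_⟩
  rintro _ ⟨k, rfl⟩
  have e : ∀ j : ℤ, g ^ (2 * j) ∈ V := fun j => by rw [zpow_mul, zpow_two]; exact zpow_mem g2 j
  obtain ⟨j, rfl | rfl⟩ := Int.even_or_odd' k
  · exact .inr ⟨e j, fun h => g0 ((mul_mem_cancel_left (e j)).1 h)⟩
  · refine .inl ⟨?_, fun h => g0 ((mul_mem_cancel_left (e j)).1 (zpow_add_one g _ ▸ h))⟩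
    beta_reduce
    rw [zpow_add_one, mul_assoc]
    exact mul_mem (e j) g2

theorem cen8 (cW : Nat.card W = 8) (c : W ⊓ 𝐂(zpowers y) ≤ zpowers z) (z2 : z * z = 1) (z1 : z ≠ 1) (o : orderOf y = 3)
    (yz : y * z = z * y) (m : z ∈ W) (n : y ∈ 𝐍(W)) (gz : g * z = z * g) (yg : y * g = g * y) (k : ∀ w ∈ W, ⁅w, g⁆ ∈ zpowers z) :
    W ≤ centralizer {g} := by
  refine inf_eq_left.1 ((irr8 cW c z2 z1 o yz inf_le_left ⟨m, mem_centralizer_singleton_iff.2 gz.symm⟩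
    (mem_normalizer_of_conj_mem fun v hv => ⟨conj_mem_of_mem_normalizer n hv.1, ?_⟩)).resolve_left fun e => ?_)
  · have := conj_mem_cj y hv.2
    rwa [cj_centralizer_singleton, yg, mul_inv_cancel_right] at this
  · have e1 := card_inf_mul_relIndex (centralizer {g}) W
    have e4 := rel_le (A := W) (D := centralizer {g}) (fun a => (⟨_, k _ a.2⟩ : zpowers z)) fun a b e => by
      have e' : ⁅(a : G), g⁆ = ⁅(b : G), g⁆ := congrArg Subtype.val e
      simp only [commutatorElement_def, mul_left_inj] at e'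
      rw [mem_centralizer_singleton_iff, mul_assoc, inv_mul_eq_iff_eq_mul, ← mul_assoc, ← mul_assoc, e', inv_mul_cancel_right]
    rw [inf_comm, e, card_z z2 z1, cW] at e1
    rw [card_z z2 z1] at e4
    omega

namespace Sy
variable (s : Sy M x y z) (nv : 𝐍(Vz M) = M) (q : 𝐎[2](M) ≤ Vz M)
include s nv q

theorem CV : 𝐂(Vz M) ≤ Vz M := (s.CQ nv).trans q

theorem cy : Qz M z ⊓ 𝐂(zpowers y) ≤ zpowers z := fun g hg => s.Vy ⟨q (s.fy nv hg.1 (by
  rw [commutatorElement_eq_one_iff_mul_comm.2 (hg.2 y (mem_zpowers y))]; exact one_mem _)), hg.2⟩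

theorem mod3 (l : K ≤ Qz M z) (m : z ∈ K) (n : y ∈ 𝐍(K)) : Nat.card K % 3 = 2 := by
  have := Transfer.card_modEq_card_inf_centralizer (p3 s.oy) (zpowers_le.2 n)
  rwa [((inf_le_inf_right _ l).trans (s.cy nv q)).antisymm (zpowers_le.2 ⟨m, by
    rw [centralizer_zpowers]; exact mem_centralizer_singleton_iff.2 s.yz.symm⟩), card_z s.z2 s.z1] at this

theorem cQ : Nat.card 𝐎[2](M) = 8 := by rw [q.antisymm (VQ M)]; exact s.cV

theorem VQ1 : Vz M ≤ Qz M z := (VQ M).trans s.QQ1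

theorem c32 : Nat.card (Qz M z) = 32 := by
  have h1 := s.big nv
  have h2 := s.mod3 nv q le_rfl (s.VQ1 nv q s.hz) (s.nQ1 ⟨s.my, s.yH⟩)
  have h3 := card_dvd_of_le (s.Q1M nv)
  obtain ⟨k, e⟩ := (s.pQ1 nv).exists_card_eq
  rw [s.card, s.cQ nv q, e] at h3
  have := (Nat.pow_dvd_pow_iff_le_right one_lt_two).1
    ((Nat.Coprime.pow_left k (by decide : Nat.Coprime 2 21)).dvd_of_dvd_mul_right (show _ ∣ 2 ^ 6 * 21 from h3))
  rw [s.cQ nv q] at h1
  interval_cases k <;> omega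

theorem ab2 (ha : a ∈ Qz M z) (hb : b ∈ Qz M z) : ⁅a, b⁆ ∈ zpowers z := by
  by_cases a0 : a ∈ Vz M
  · exact hb.2 a a0
  have ny := s.nQ1 ⟨s.my, s.yH⟩
  have cA : ∀ {g}, g ∈ Qz M z → g ∉ Vz M → Nat.card ↥(Vz M ⊔ zpowers g) = 16 := fun m k => by
    rw [card_sup_z (s.Q1N m) k (q (s.sq1 nv m)), s.cV]
  have lA : ∀ {g}, g ∈ Qz M z → Vz M ⊔ zpowers g ≤ Qz M z := fun m => sup_le (s.VQ1 nv q) (zpowers_le.2 m)
  have iA : ∀ {g}, g ∈ Qz M z → g ∉ Vz M → (Vz M ⊔ zpowers g).relIndex (Qz M z) = 2 := fun m k => by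
    have := card_mul_relIndex (lA m)
    rw [cA m k, s.c32 nv q] at this
    omega
  have kA : ∀ {g}, g ∈ Qz M z → Vz M ⊔ zpowers g ≤ sc g (zpowers z) := fun m => sup_le (fun v hv =>
    ⟨(s.VQ1 nv q hv).1, swap_mem (m.2 v hv)⟩) (zpowers_le.2 ⟨m.1, by simp⟩)
  have nA : ∀ {g}, g ∈ Qz M z → g ∉ Vz M → y * g * y⁻¹ ∉ Vz M ⊔ zpowers g := fun m k c => by
    have := s.mod3 nv q (lA m) (mem_sup_left s.hz) (mem_normalizer_of_cj_le (by
      rw [cj_sup, cj_eq_self (nV M s.my), cj_zpowers]; exact sup_le le_sup_left (zpowers_le.2 c)))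
    rw [cA m k] at this
    omega
  have ht := conj_mem_of_mem_normalizer ny ha
  have t0 : y * a * y⁻¹ ∉ Vz M := fun c => nA ha a0 (mem_sup_left c)
  have ht' := conj_mem_of_mem_normalizer ny ht
  have cV : ⁅a, y * a * y⁻¹⁆ ∈ Vz M := q (s.ab1 nv (commutator_mem_commutator ha ht))
  have k := (kA ht (mul_mem_of_relIndex_two (iA ht t0) ht' ha (nA ht t0) fun c => nA ha a0 ((eq_of_le_of_card_le
    (sup_le le_sup_left (zpowers_le.2 c)) (by rw [cA ha a0, cA ht t0])).ge (mem_sup_right (mem_zpowers _))))).2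
  have k2 := ht'.2 _ cV
  have key : ⁅a, y * a * y⁻¹⁆ ∈ zpowers z := by_contra fun c0 => by
    have c1 := card_sup_z (centralizer_le_normalizer _ (s.HC (s.VQ1 nv q cV).1)) c0 (sq_of (eV M) cV ▸ one_mem _)
    rw [card_z s.z2 s.z1] at c1
    obtain e | e := s.irr (sup_le (zpowers_le.2 s.hz) (zpowers_le.2 cV)) (mem_sup_left (mem_zpowers z))
      (mem_normalizer_of_cj_le (by
        rw [cj_sup, cj_eq_self s.yH, cj_zpowers]
        refine sup_le le_sup_left (zpowers_le.2 ?_)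
        have := mul_mem (mul_mem (mem_sup_left k) (mem_sup_left (inv_mem k2))) (mem_sup_right (S := zpowers z)
          (mem_zpowers ⁅a, y * a * y⁻¹⁆))
        convert this using 1
        simp only [commutatorElement_def]; group))
    · exact c0 (e.le (mem_sup_right (mem_zpowers _)))
    · rw [e, s.cV] at c1; omega
  exact ((sup_zpowers_eq_of_relIndex_prime ((iA ha a0).symm ▸ Nat.prime_two) (lA ha) ht (nA ha a0)).ge.trans
    (sup_le (kA ha) (zpowers_le.2 ⟨ht.1, key⟩)) hb).2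

theorem sq2 (m : g ∈ Qz M z) : g * g ∈ zpowers z := s.cvq nv ⟨q (s.sq1 nv m), fun b hb => by
  have c := s.ab2 nv q hb m
  have e : b * (g * g) = ⁅b, g⁆ * (g * ⁅b, g⁆ * g⁻¹) * (g * g * b) := by simp only [commutatorElement_def]; group
  rw [e, s.cj m.1 c, sq_of (eV M) (zpowers_le.2 s.hz c), one_mul]⟩

theorem ex : LX.EX (Qz M z) z :=
  have c : ∀ g ∈ 𝐂(Qz M z), g = 1 ∨ g = z := fun g hg =>
    (mem_z s.z2).1 (s.cvq nv ⟨s.CV nv q (centralizer_anti (s.VQ1 nv q) hg), hg⟩)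
  ⟨⟨s.VQ1 nv q s.hz, orderOf_eq_prime ((pow_two z).trans s.z2) s.z1, fun _ m => s.cz m.1,
    fun _ m => (mem_z s.z2).1 (s.sq2 nv q m), fun g _ b _ => c g b⟩, fun g _ b => c g b, fun l => by
      have := card_le_card_of_le l
      rw [s.c32 nv q, card_z s.z2 s.z1] at this
      omega⟩

theorem lq (l : 𝐎[2](Hz z) ≤ Qz M z) : LX.LQ (Qz M z) z ∧ 𝐎[2](centralizer {z}) ≤ Qz M z := by
  have e : centralizer {z} = Hz z := le_antisymm (fun g hg => mem_H (mem_centralizer_singleton_iff.1 hg))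
    (s.HC.trans (centralizer_zpowers z).le)
  exact ⟨⟨s.ex nv q, (centralizer_anti (s.VQ1 nv q)).trans ((s.CV nv q).trans (s.VQ1 nv q)),
    e.le.trans (l.antisymm (s.Q1Y nv) ▸ le_normalizer_pCoreOf 2 _)⟩, e ▸ l⟩

end Sy

end CF.W7
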