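import Cfsg.Agent.W7.V5

/-! The case of a Sylow `2`-subgroup of order `128`. -/

set_option autoImplicit false
set_option linter.unusedSectionVars false

namespace CF.W7

open Subgroup Cfsg CF.Loc
open scoped commutatorElement

variable {G : Type*} [Group G] [Finite G] {A D E F H K L M N Q S T U V W X : Subgroup G} {a b c x y z g r u v w : G}

abbrev Wz (z : G) : Subgroup G := 𝐎[2](Hz z) ⊓ secCent 𝐎[2](Hz z) (zpowers z)
abbrev Nz (M : Subgroup G) (z : G) : Subgroup G := 𝐎[2](Hz z) ⊓ 𝐍(Qz M z)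

namespace Sy
variable (s : Sy M x y z) (nv : 𝐍(Vz M) = M) (q : 𝐎[2](M) ≤ Vz M) (n : ¬ 𝐎[2](Hz z) ≤ Qz M z)
include s nv q n

theorem nW : Hz z ≤ 𝐍(Wz z) := le_normalizer_inf (le_normalizer_pCoreOf 2 _) (le_normalizer_secCent (le_normalizer_pCoreOf 2 _) le_rfl)

theorem W1 : Wz z ≤ Qz M z := fun _ hw => ⟨hw.2.1, fun v hv => hw.2.2 v (s.QY (VQ M hv))⟩

theorem zW : z ∈ Wz z := ⟨s.QY (VQ M s.hz), le_normalizer (mem_zpowers z), fun a ha => by
  rw [commutatorElement_eq_one_iff_mul_comm.2 (s.cz (pCoreOf_le 2 _ ha))]; exact one_mem _⟩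

theorem Wy : Wz z ⊓ 𝐂(zpowers y) ≤ zpowers z := (inf_le_inf_right _ (s.W1 nv q n)).trans (s.cy nv q)

theorem VW : Vz M ⊓ Wz z = zpowers z := (s.irr inf_le_left ⟨s.hz, s.zW nv q n⟩ (le_normalizer_inf (zpowers_le.2 (nV M s.my))
  (zpowers_le.2 (s.nW nv q n s.yH)) (mem_zpowers y))).resolve_right fun e => n fun a ha =>
    ⟨pCoreOf_le 2 _ ha, fun v hv => swap_mem ((e.ge hv).2.2.2 a ha)⟩

theorem cVW : Nat.card ↥(Vz M ⊔ Wz z) = Nat.card (Wz z) * 4 := by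
  have := card_sup_mul_card_inf' ((s.W1 nv q n).trans s.Q1N)
  rw [s.VW nv q n, card_z s.z2 s.z1, s.cV] at this
  omega

theorem cW : Nat.card (Wz z) = 8 := by
  have h1 := card_le_card_of_le (sup_le (s.VQ1 nv q) (s.W1 nv q n))
  have h2 := s.mod3 nv q (s.W1 nv q n) (s.zW nv q n) (s.nW nv q n s.yH)
  rw [s.cVW nv q n, s.c32 nv q] at h1
  obtain ⟨w, hw, w0, -, c⟩ := exists_cen (isPGroup_pCoreOf 2 (Hz z)) (pCoreOf_le 2 _) fun e =>
    n (e.trans (zpowers_le.2 (s.VQ1 nv q s.hz)))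
  have h3 := card_lt_card_of_lt (lt_of_le_not_ge (zpowers_le.2 (s.zW nv q n)) fun e => w0 (e ⟨hw, pCoreOf_le 2 _ hw, c⟩))
  obtain ⟨k, e⟩ := ((isPGroup_pCoreOf 2 (Hz z)).to_inf_left (K := secCent 𝐎[2](Hz z) (zpowers z))).exists_card_eq
  have : 2 ∣ Nat.card (Wz z) := card_z s.z2 s.z1 ▸ card_dvd_of_le (zpowers_le.2 (s.zW nv q n))
  rw [card_z s.z2 s.z1] at h3
  omega

theorem sup1 : Vz M ⊔ Wz z = Qz M z := eq_of_le_of_card_le (sup_le (s.VQ1 nv q) (s.W1 nv q n))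
  (by rw [s.cVW nv q n, s.cW nv q n, s.c32 nv q])

theorem lt1 : Qz M z < Nz M z := lt_inf_normalizer (isPGroup_pCoreOf 2 _) (lt_of_le_not_ge (s.Q1Y nv) n)

theorem NH : Nz M z ≤ Hz z := inf_le_left.trans (pCoreOf_le 2 _)

theorem yN : y ∈ 𝐍(Nz M z) := le_normalizer_inf (zpowers_le.2 (le_normalizer_pCoreOf 2 _ s.yH))
  (zpowers_le.2 (normalizer_le_normalizer_normalizer _ (s.nQ1 ⟨s.my, s.yH⟩))) (mem_zpowers y)

theorem CW : Qz M z ⊓ 𝐂(Wz z) = Wz z := by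
  have c := (s.ex nv q).card_mul_card (s.zW nv q n) (s.W1 nv q n)
  rw [s.cW nv q n, s.c32 nv q] at c
  have c8 : Nat.card ↥(Qz M z ⊓ 𝐂(Wz z)) = 8 := by omega
  have zU : z ∈ Qz M z ⊓ 𝐂(Wz z) := ⟨s.VQ1 nv q s.hz, fun w hw => s.cz hw.2.1⟩
  have nC := le_normalizer_centralizer (s.nW nv q n)
  have yU := le_normalizer_inf (zpowers_le.2 (s.nQ1 ⟨s.my, s.yH⟩)) (zpowers_le.2 (nC s.yH)) (mem_zpowers y)
  have QH : Qz M z ≤ Hz z := secCent_le_normalizer _ _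
  obtain e | e := irr8 (s.cW nv q n) (s.Wy nv q n) s.z2 s.z1 s.oy s.yz inf_le_left ⟨s.zW nv q n, zU⟩
    (le_normalizer_inf (zpowers_le.2 (s.nW nv q n s.yH)) (zpowers_le.2 yU) (mem_zpowers y))
  swap
  · exact (eq_of_le_of_card_le (e.ge.trans inf_le_right) (by rw [c8, s.cW nv q n])).symm
  have k := comm8 c8 ((inf_le_inf_right _ inf_le_left).trans (s.cy nv q)) s.z2 s.z1 s.oy s.yz zU ((inf_le_left.trans QH).trans s.HC)
    yU (isPGroup_pCoreOf 2 _).to_inf_left (s.yN nv q n) (le_normalizer_inf inf_le_right ((s.NH nv q n).trans nC))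
    ((s.NH nv q n).trans s.HC)
  have c' := card_sup_mul_card_inf' (H := Wz z) (N := Qz M z ⊓ 𝐂(Wz z)) (inf_le_right.trans (centralizer_le_normalizer _))
  rw [e, c8, s.cW nv q n, card_z s.z2 s.z1] at c'
  have e' := eq_of_le_of_card_le (sup_le (s.W1 nv q n) (inf_le_left (b := 𝐂(Wz z)))) (by rw [s.c32 nv q]; omega)
  refine ((s.lt1 nv q n).not_ge (le_secCent_iff.2 ⟨s.NH nv q n, (commutator_mono ((s.VQ1 nv q).trans e'.ge) le_rfl).trans
    (commutator_sup_left_le ((s.W1 nv q n).trans QH) (inf_le_left.trans QH) ?_ k)⟩)).elim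
  exact commutator_le.2 fun w hw a ha => swap_mem (hw.2.2 a ha.1)

theorem abW : Wz z ≤ 𝐂(Wz z) := (s.CW nv q n).ge.trans inf_le_right

theorem eW : IsElementaryAbelian 2 (Wz z) := by
  have ab := s.abW nv q n
  refine (irr8 (s.cW nv q n) (s.Wy nv q n) s.z2 s.z1 s.oy s.yz (omegaOne_le 2 _) (mem_omegaOne (s.zW nv q n)
    ((pow_two z).trans s.z2)) (normalizer_le_normalizer_omegaOne 2 _ (s.nW nv q n s.yH))).elim (fun e => ?_)
    fun e => e ▸ isElemAb_omegaOne ab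
  have h1 := card_mul_relIndex (zpowers_le.2 (s.zW nv q n))
  have h2 := rel_le (A := Wz z) (D := zpowers z) (fun a => (⟨_, s.sq2 nv q (s.W1 nv q n a.2)⟩ : zpowers z)) fun a b k =>
    e.le (mem_omegaOne (mul_mem (inv_mem a.2) b.2) (by
      have k' : (a : G) * a = b * b := congrArg Subtype.val k
      rw [(show Commute (a : G)⁻¹ b from ab b.2 _ (inv_mem a.2)).mul_pow, inv_pow, pow_two, pow_two, k', inv_mul_cancel]))
  rw [card_z s.z2 s.z1] at h1 h2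
  rw [s.cW nv q n] at h1
  omega

theorem cmW (hr : r ∈ Nz M z) (ha : a ∈ Qz M z) : ⁅r, a⁆ ∈ Wz z := by
  have k : ∀ K ≤ 𝐎[2](Hz z), ∀ L ≤ Hz z, ⁅⁅K, Wz z⁆, L⁆ ≤ ⊥ := fun K a L b => (commutator_mono (show ⁅K, Wz z⁆ ≤ zpowers z from
    commutator_le.2 fun a' ha w hw => hw.2.2 a' (a ha)) le_rfl).trans (commutator_eq_bot_iff_le_centralizer'.2 (b.trans s.HC)).le
  refine (s.CW nv q n).le ⟨commutator_le_right_of_le_normalizer inf_le_right (commutator_mem_commutator hr ha),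
    commutator_eq_bot_iff_le_centralizer.1 (le_bot_iff.1 (three_subgroups (N := ⊥) (le_normalizer_of_normal' _ _)
      (le_normalizer_of_normal' _ _) (le_normalizer_of_normal' _ _) (k _ (s.Q1Y nv) _ (s.NH nv q n)) ?_))
      (commutator_mem_commutator hr ha)⟩
  rw [commutator_comm (Wz z)]
  exact k _ inf_le_left _ (secCent_le_normalizer _ _)

theorem dv (hr : r ∈ Nz M z) (hv : v ∈ Vz M) : ⁅r, v⁆ * v = v * ⁅r, v⁆ := by
  have h1 := sq_of (s.eW nv q n) (s.cmW nv q n hr (s.VQ1 nv q hv))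
  have h2 := sq_of (eV M) hv
  have h3 : ⁅r, v⁆ * v * (⁅r, v⁆ * v) = 1 := by
    rw [show ⁅r, v⁆ * v * (⁅r, v⁆ * v) = r * (v * v) * r⁻¹ by rw [commutatorElement_def]; group, h2]; group
  rw [eq_inv_of_mul_eq_one_left h3, mul_inv_rev, inv_eq_of_mul_eq_one_right h1, inv_eq_of_mul_eq_one_right h2]

theorem one (hr : r ∈ Nz M z) (hv : v ∈ Vz M) (v0 : v ∉ zpowers z) (c : ⁅r, v⁆ ∈ zpowers z) : r ∈ Qz M z := by
  refine ⟨s.NH nv q n hr, fun u hu => swap_mem (by_contra fun u0 => ?_)⟩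
  have VH := (s.VQ1 nv q).trans (secCent_le_normalizer _ _)
  have l : zpowers z ⊔ zpowers v ≤ Vz M ⊓ sc r (zpowers z) := sup_le (zpowers_le.2 ⟨s.hz, VH s.hz, by
    rw [commutatorElement_eq_one_iff_mul_comm.2 (s.cz (s.NH nv q n hr))]; exact one_mem _⟩) (zpowers_le.2 ⟨hv, VH hv, c⟩)
  have h1 := card_le_card_of_le l
  rw [card_sup_z (VH hv) v0 (sq_of (eV M) hv ▸ one_mem _), card_z s.z2 s.z1] at h1
  have u1 : u ∉ Vz M ⊓ sc r (zpowers z) := fun k => u0 k.2.2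
  have h2 := card_sup_z (centralizer_le_normalizer_of_le inf_le_left (isElemAb_le_centralizer (eV M) hu)) u1
    (sq_of (eV M) hu ▸ one_mem _)
  have e := eq_of_le_of_card_le (sup_le inf_le_left (zpowers_le.2 hu) : Vz M ⊓ sc r (zpowers z) ⊔ zpowers u ≤ _)
    (by rw [s.cV]; omega)
  refine u0 ((s.VW nv q n).le ⟨s.CV nv q ?_, s.cmW nv q n hr (s.VQ1 nv q hu)⟩)
  rw [← e, centralizer_sup, centralizer_zpowers]
  refine ⟨fun a ha => ?_, mem_centralizer_singleton_iff.2 (s.dv nv q n hr hu)⟩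
  have h3 := isElemAb_le_centralizer (eV M) hu a ha.1
  have h4 := s.HC (VH hu) _ ha.2.2
  have h5 := s.HC (s.W1 nv q n (s.cmW nv q n hr (s.VQ1 nv q hu))).1 _ ha.2.2
  refine mul_left_cancel (a := ⁅r, a⁆) (mul_right_cancel (b := u) ?_)
  calc _ = r * (a * u) * r⁻¹ := by simp only [commutatorElement_def]; group
    _ = ⁅r, u⁆ * (u * ⁅r, a⁆) * a := by rw [h3]; simp only [commutatorElement_def]; group
    _ = _ := by rw [← h4, ← mul_assoc, ← h5, mul_assoc _ u, ← h3]; group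

theorem i2 : (Qz M z).relIndex (Nz M z) = 2 := by
  obtain ⟨v, hv, v0⟩ := SetLike.not_le_iff_exists.1 fun e : Vz M ≤ zpowers z => by
    have := card_le_card_of_le e
    rw [s.cV, card_z s.z2 s.z1] at this
    omega
  have zc : z ∈ Wz z ⊓ centralizer {v} := ⟨s.zW nv q n, mem_centralizer_singleton_iff.2 (s.cz (s.VQ1 nv q hv).1).symm⟩
  have c4 : (zpowers z).relIndex (Wz z ⊓ centralizer {v}) = 2 ∨ (zpowers z).relIndex (Wz z ⊓ centralizer {v}) = 1 := by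
    have h1 := card_mul_relIndex (zpowers_le.2 zc)
    have h2 := card_dvd_of_le (inf_le_left : Wz z ⊓ centralizer {v} ≤ _)
    have h3 := card_lt_card_of_lt (inf_lt_left.2 fun e : Wz z ≤ centralizer {v} => ?_)
    · rw [s.cW nv q n] at h2 h3
      rw [card_z s.z2 s.z1] at h1
      generalize Nat.card ↥(Wz z ⊓ centralizer {v}) = k at *
      interval_cases k <;> omega
    obtain k | k := s.irr (inf_le_left (b := 𝐂(Wz z))) ⟨s.hz, fun w hw => s.cz hw.2.1⟩ (le_normalizer_inf (zpowers_le.2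
      (nV M s.my)) (zpowers_le.2 (le_normalizer_centralizer (s.nW nv q n) s.yH)) (mem_zpowers y))
    · exact v0 (k.le ⟨hv, fun w hw => mem_centralizer_singleton_iff.1 (e hw)⟩)
    · have := card_le_card_of_le ((le_inf ((le_centralizer_comm.1 (k.ge.trans inf_le_right)).trans (s.CV nv q)) le_rfl).trans
        (s.VW nv q n).le)
      rw [s.cW nv q n, card_z s.z2 s.z1] at this
      omega
  have m : ∀ {r}, r ∈ Nz M z → ⁅r, v⁆ ∈ Wz z ⊓ centralizer {v} := fun hr =>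
    ⟨s.cmW nv q n hr (s.VQ1 nv q hv), mem_centralizer_singleton_iff.2 (s.dv nv q n hr hv)⟩
  obtain ⟨a, ha, a0⟩ := SetLike.exists_of_lt (s.lt1 nv q n)
  have c2 := c4.resolve_right fun e => a0 (s.one nv q n ha hv v0 (relIndex_eq_one.1 e (m ha)))
  refine relIndex_eq_two_iff.2 ⟨a, ha, fun b hb => (em (b ∈ Qz M z)).symm.imp (fun k => ⟨?_, k⟩)
    fun k => ⟨k, fun c => a0 ((mul_mem_cancel_left k).1 c)⟩⟩
  refine s.one nv q n (mul_mem hb ha) hv v0 ?_
  have := mul_mem ((m ha).1.2.2 b hb.1) (mul_mem_of_relIndex_two c2 (m ha) (m hb) (fun c => a0 (s.one nv q n ha hv v0 c))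
    fun c => k (s.one nv q n hb hv v0 c))
  convert this using 1
  simp only [commutatorElement_def]; group

theorem invol (hg : g ∈ Nz M z) (g2 : g * g = 1) : g ∈ Qz M z := by_contra fun g0 => by
  have l := (s.lt1 nv q n).le
  have yQ := zpowers_le.2 (s.nQ1 ⟨s.my, s.yH⟩)
  have e := BG.sup_inf_cent_of_comm_le l yQ (cop23 (s.pQ1 nv) (p3 s.oy)).symm (.inl (isSolvable_of_isPGroup (p3 s.oy)))
    (commutator_le_of_relIndex_two (s.i2 nv q n) yQ (zpowers_le.2 (s.yN nv q n)))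
  obtain ⟨r, hr, r0⟩ := SetLike.not_le_iff_exists.1 fun k => (s.lt1 nv q n).not_ge (e.ge.trans (sup_le le_rfl k))
  have yr := hr.2 y (mem_zpowers y)
  have rz := s.cz (s.NH nv q n hr.1)
  have zQ := s.VQ1 nv q s.hz
  have r2 : r * r = z := ((mem_z s.z2).1 (s.cy nv q ⟨sq_mem_of_relIndex_two (s.i2 nv q n) hr.1, mul_mem hr.2 hr.2⟩)).resolve_left
    fun k => (s.f4 y r z s.oy k s.z2 rz yr s.yz).elim (fun k => r0 (k ▸ one_mem _)) fun k => k.elim s.z1 fun k => r0 (k ▸ zQ)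
  have rW := cen8 (s.cW nv q n) (s.Wy nv q n) s.z2 s.z1 s.oy s.yz (s.zW nv q n) (s.nW nv q n s.yH) rz yr
    fun w hw => swap_mem (hw.2.2 r hr.1.1)
  have m := mul_mem_of_relIndex_two (s.i2 nv q n) hg (inv_mem hr.1) g0 (mt inv_mem_iff.1 r0)
  have m2 := s.sq2 nv q m
  obtain ⟨v, hv, w, hw, e⟩ := (mem_sup_of_le_normalizer ((s.W1 nv q n).trans s.Q1N)).1 ((s.sup1 nv q n).ge m)
  have c : ∀ w ∈ Wz z, r * w * r⁻¹ = w := fun w hw => mul_inv_eq_of_eq_mul (mem_centralizer_singleton_iff.1 (rW hw)).symm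
  obtain rfl : g = v * w * r := by rw [e, inv_mul_cancel_right]
  rw [mul_inv_cancel_right] at m m2
  by_cases v0 : v ∈ zpowers z
  · have m' := mul_mem (zpowers_le.2 (s.zW nv q n) v0) hw
    refine s.z1 ?_
    calc z = v * w * (r * (v * w) * r⁻¹) * z := by rw [c _ m', sq_of (s.eW nv q n) m', one_mul]
      _ = 1 := by rw [← r2, ← g2]; group
  refine r0 (s.one nv q n hr.1 hv v0 ?_)
  have k : ⁅r, v⁆ = (v * w)⁻¹ * ((v * w * r) * (v * w * r) * (r * r)⁻¹ * (v * w * (v * w))⁻¹) * (v * w) := by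
    calc _ = r * (v * w) * r⁻¹ * (r * w * r⁻¹)⁻¹ * v⁻¹ := by rw [commutatorElement_def]; group
      _ = _ := by rw [c w hw]; group
  rw [k, g2, r2, one_mul]
  exact conj_mem_of_mem_normalizer' m.1 (mul_mem (inv_mem (mem_zpowers z)) (inv_mem m2))

theorem c64 : Nat.card 𝐎[2](Hz z) = 64 := by
  have e : omegaOne 2 (Nz M z) = Qz M z := le_antisymm (omegaOne_le_iff.2 fun g a b => s.invol nv q n a ((pow_two g).symm.trans b))
    ((s.sup1 nv q n).ge.trans (sup_le (fun v hv => mem_omegaOne ((s.lt1 nv q n).le (s.VQ1 nv q hv)) ((eV M).2 v hv))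
      fun w hw => mem_omegaOne ((s.lt1 nv q n).le (s.W1 nv q n hw)) ((s.eW nv q n).2 w hw)))
  have e' := (inf_le_left : Nz M z ≤ _).eq_or_lt.resolve_right fun l => (lt_inf_normalizer (isPGroup_pCoreOf 2 _) l).not_ge
    (inf_le_inf_left _ ((normalizer_le_normalizer_omegaOne 2 (Nz M z)).trans (by rw [e])))
  rw [← e', ← card_mul_relIndex (s.lt1 nv q n).le, s.i2 nv q n, s.c32 nv q]

theorem c128 : ∃ S : Subgroup G, IsSyl 2 S ⊤ ∧ Nat.card S = 128 := by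
  have lH : M ⊓ centralizer {z} ≤ Hz z := fun g hg => mem_H (mem_centralizer_singleton_iff.1 hg.2)
  obtain ⟨T, t⟩ := exists_isSyl 2 (M ⊓ centralizer {z})
  obtain ⟨S, sH, l⟩ := exists_isSyl_ge t.isPGroup (t.le.trans lH)
  refine ⟨S, s.syl nv sH, ?_⟩
  have h1 := card_mul_relIndex sH.pCoreOf_le
  obtain e | e := (Nat.dvd_prime Nat.prime_two).1 (s.hy.idx_two rfl (s.hy.sol s.n7) (s.hy.lc _ s.pz s.z0) s.th sH.isPGroup sH.le)
  · have h2 := card_le_card_of_le ((le_inf (l.trans (relIndex_eq_one.1 e)) (t.le.trans inf_le_left)).trans s.YM)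
    have h3 := card_mul_relIndex t.le
    have h4 := t.not_dvd_relIndex
    obtain ⟨k, h5⟩ := t.isPGroup.exists_card_eq
    rw [s.card_c s.hz s.z1, s.cQ nv q, h5] at h3
    have := Nat.le_of_dvd (by positivity) ((((Nat.Prime.coprime_iff_not_dvd Nat.prime_two).2 h4).pow_left 6).dvd_of_dvd_mul_right
      ⟨3, h3⟩)
    rw [s.c32 nv q] at h2
    omega
  · rw [← h1, e, s.c64 nv q n]

end Sy

end CF.W7
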